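import Cfsg.Agent.H62.ConformalQuotients
import Cfsg.Agent.H4.Coset.Plus
import Cfsg.Agent.H4.Coset.Minus

/-!
The plus and minus carriers in odd characteristic: discriminants, proper similarities with
non-square multiplier and the spinor norms of their squares.
-/

set_option autoImplicit false
set_option maxHeartbeats 400000

namespace Cfsg.Agent.H62.Conformal

open QuadraticMap hiding sq
open Module
open scoped Matrix
open Cfsg.Agent.H4
open Cfsg.Agent.H5 (orth refl refl_apply dick spin sqc orth_map orth_ext orth_mul_apply)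

variable {F : Type*} [Field F] [Fintype F]

theorem two_ne_zero_of_odd_card (hodd : Odd (Fintype.card F)) : (2 : F) ≠ 0 := by
  intro h
  have h' : ringChar F = 2 := by
    haveI := CharTwo.of_one_ne_zero_of_two_eq_zero (R := F) one_ne_zero h
    exact ringChar.eq F 2
  have := FiniteField.even_card_of_char_two h'
  obtain ⟨j, hj⟩ := hodd
  omega

theorem sqc_pow' {a : F} (ha : a ≠ 0) (n : ℕ) : sqc (a ^ n) = sqc a ^ n := by
  induction n with
  | zero => simp [H5.sqc_one]
  | succ n ih => rw [pow_succ, pow_succ, H5.sqc_mul (pow_ne_zero _ ha) ha, ih]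

section plus

variable {m : ℕ}

theorem negOrth_plus_iff (h2 : (2 : F) ≠ 0) (hm : 3 ≤ m) :
    negOrth (qPlus m F) ∈ commutator (orth (qPlus m F)) ↔
      ¬ (Odd m ∧ Fintype.card F % 4 = 3) := by
  haveI : Finite (Fin m ⊕ Fin m → F) := Pi.finite
  have hE := evenForm_qPlus (F := F) hm
  rw [negOrth_mem_iff h2 hE.nondeg (Pi.basisFun F _) (by rw [hE.rank]; omega), det_gram_qPlus, hE.rank,
    and_iff_right (even_two_mul m)]
  rcases Nat.even_or_odd m with he | ho
  · rw [he.neg_one_pow]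
    exact iff_of_true IsSquare.one fun h => (Nat.not_even_iff_odd.2 h.1) he
  · rw [ho.neg_one_pow, FiniteField.isSquare_neg_one_iff]
    simp [ho]

theorem hmult_plus : ∀ c : F, c ≠ 0 → c ∈ similMults (qPlus m F) := fun c hc => by
  rw [similMults_qPlus]; exact hc

/-- The inner-diagonal group of the plus carrier is the proper image. -/
theorem inndiag_plus_eq' (hm : 3 ≤ m) :
    Cfsg.inndiagPOmegaPlus m F = properImage (coe_qPlus m) (evenForm_qPlus (F := F) hm) := by
  haveI : Finite (Fin m ⊕ Fin m → F) := Pi.finite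
  set hE := evenForm_qPlus (F := F) hm
  haveI := hE.nontrivial
  obtain ⟨W, hW, hWr⟩ := qPlus_singular (F := F) m
  refine le_antisymm ((Subgroup.closure_le _).2 ?_) ?_
  · rintro β ⟨M, ⟨c, hc⟩, hM, hβ⟩
    obtain ⟨g, hg, hgs⟩ := exists_sim_of_pair (qPlus m F) (coe_qPlus _) (M := M)
      (σ := RingEquiv.refl F) ⟨c, hc⟩
    exact ⟨g, (mem_properSim hE (g := ⟨g, hgs⟩)).2
      ((preserves_iff_proper (coe_qPlus _) hE ⟨W, hWr, hW⟩ ⟨g, hgs⟩ _ hg).1 hM),
      ((induced_iff _ (coe_qPlus _) g M _ hg β).1 hβ).symm⟩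
  · rintro _ ⟨g, hg, rfl⟩
    refine Subgroup.subset_closure ?_
    set M := semiMatrix (simEquiv g) (RingEquiv.refl F) hg.1
    have hMv : ∀ v, (M : Matrix _ _ F) *ᵥ v = (g : Equiv.Perm _) v := fun v =>
      semiMatrix_mulVec (simEquiv g) (RingEquiv.refl F) hg.1 v
    exact ⟨M, ⟨Units.mk0 _ (isSemiSim g).ne_zero, fun v => by
        rw [Units.val_mk0, hMv, ← coe_qPlus]; exact linSim_app _ ⟨g, hg.1⟩ v⟩,
      (preserves_iff_proper (coe_qPlus _) hE ⟨W, hWr, hW⟩ ⟨g, hg.1⟩ _ hMv).2 hg.2,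
      (induced_iff _ (coe_qPlus _) g M _ hMv _).2 rfl⟩

/-- A proper similarity with non-square multiplier and the spinor norm belonging to its square. -/
theorem plus_square_data (h2 : (2 : F) ≠ 0) (hm : 3 ≤ m) :
    ∃ (d : linSim (qPlus m F)) (k : orth (qPlus m F)) (s : F),
      IsProper m d ∧ ¬ IsSquare (simMult d.1) ∧
      (∀ v, (d.1 : Equiv.Perm (Fin m ⊕ Fin m → F)) ((d.1 : Equiv.Perm (Fin m ⊕ Fin m → F)) v) =
        s • (k : (Fin m ⊕ Fin m → F) ≃ₗ[F] (Fin m ⊕ Fin m → F)) v) ∧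
      spin (qPlus m F) k = (-1) ^ m := by
  haveI : Finite (Fin m ⊕ Fin m → F) := Pi.finite
  have hE := evenForm_qPlus (F := F) hm
  haveI := hE.nontrivial
  obtain ⟨c, hc⟩ := H5.exists_not_isSquare h2
  have hc0 : c ≠ 0 := fun h => hc (h ▸ IsSquare.zero)
  let cu : Fˣ := Units.mk0 c hc0
  have hq : ∀ v, qPlus m F (diagMap F m (fun _ => cu) (fun _ => 1) v) = c * qPlus m F v :=
    qPlus_diagMap _ _ (fun _ => by simp [cu])
  let d : linSim (qPlus m F) := toLinSim (diagMap F m (fun _ => cu) (fun _ => 1)) hc0 hq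
  have hdm : simMult d.1 = c := simMult_eq hE.exists_ne fun v => by
    rw [simSigma_linear d.2]; exact hq v
  refine ⟨d, diagOrth F m (fun _ => cu), c, ⟨fun _ => ?_, fun h => absurd h h2⟩, by rw [hdm]; exact hc,
    fun v => funext fun i => ?_, ?_⟩
  · rw [hdm, show (linSimEquiv d : (Fin m ⊕ Fin m → F) →ₗ[F] _) =
      Matrix.toLin' (Matrix.diagonal (Sum.elim (fun _ : Fin m => c) fun _ : Fin m => (1 : F))) from
      LinearMap.ext fun v => funext fun i => by
        change diagMap F m (fun _ => cu) (fun _ => 1) v i = _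
        rw [diagMap_apply, Matrix.toLin'_apply, Matrix.mulVec_diagonal]
        rcases i with i | i <;> simp [cu],
      LinearMap.det_toLin', Matrix.det_diagonal]
    simp
  · change diagMap F m (fun _ => cu) (fun _ => 1) (diagMap F m (fun _ => cu) (fun _ => 1) v) i = c * _
    rw [diagMap_apply, diagMap_apply, diagOrth_apply]
    rcases i with i | i <;> simp [cu, hc0]
  · rw [(diagOrth_invariants hm _).2, Finset.prod_const, Finset.card_univ, Fintype.card_fin,
      Units.val_pow_eq_pow_val, Units.val_mk0, sqc_pow' hc0, H5.sqc_eq_neg_one_iff.2 hc]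

end plus

section minus

variable {m : ℕ} {a b : F}
  (hab : ∀ z₁ z₂ : F, z₁ ^ 2 + a * z₁ * z₂ + b * z₂ ^ 2 = 0 → z₁ = 0 ∧ z₂ = 0)

include hab in
theorem minus_isSquare_disc (h2 : (2 : F) ≠ 0) :
    IsSquare (4 * b - a ^ 2) ↔ ¬ IsSquare (-1 : F) := by
  have hn := not_isSquare_disc h2 hab
  constructor
  · rintro ⟨r, hr⟩ ⟨s, hs⟩
    refine hn ⟨s * r, ?_⟩
    linear_combination (4 * b - a ^ 2) * hs + (s * s) * hr
  · intro h
    rw [show 4 * b - a ^ 2 = -1 * (a ^ 2 - 4 * b) by ring]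
    exact isSquare_mul_of_not h hn

include hab in
theorem negOrth_minus_iff (h2 : (2 : F) ≠ 0) (hm : 3 ≤ m) :
    negOrth (qMinus m F a b) ∈ commutator (orth (qMinus m F a b)) ↔
      (Even m ∧ Fintype.card F % 4 = 3) := by
  haveI : Finite ((Fin m ⊕ Fin m) ⊕ Fin 2 → F) := Pi.finite
  have hE := evenForm_qMinus (F := F) (m := m) (by omega) (disc_ne_zero hab)
  rw [negOrth_mem_iff h2 hE.nondeg (Pi.basisFun F _) (by rw [hE.rank]; omega), det_gram_qMinus, hE.rank,
    and_iff_right (even_two_mul _)]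
  have h3 : ¬ IsSquare (-1 : F) ↔ Fintype.card F % 4 = 3 := by
    rw [FiniteField.isSquare_neg_one_iff, not_not]
  have hd := minus_isSquare_disc hab h2
  rcases Nat.even_or_odd m with he | ho
  · rw [he.neg_one_pow, one_mul, hd, h3, and_iff_right he]
  · rw [ho.neg_one_pow]
    refine iff_of_false ?_ fun h => (Nat.not_even_iff_odd.2 ho) h.1
    rw [show -1 * (4 * b - a ^ 2) = a ^ 2 - 4 * b by ring]
    exact not_isSquare_disc h2 hab

include hab in
theorem hmult_minus : ∀ c : F, c ≠ 0 → c ∈ similMults (qMinus m F a b) := fun c hc => by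
  rw [similMults_qMinus m hab]; exact hc

include hab in
/-- In the case `-1 ∈ Ω` a proper similarity of multiplier `-1` whose square belongs to spinor
norm `-1`. -/
theorem minus_square_data (h2 : (2 : F) ≠ 0) (hm : 3 ≤ m) (he : Even m)
    (h3 : Fintype.card F % 4 = 3) :
    ∃ (d : linSim (qMinus m F a b)) (k : orth (qMinus m F a b)) (s : F),
      IsProper (m + 1) d ∧ ¬ IsSquare (simMult d.1) ∧
      (∀ v, (d.1 : Equiv.Perm _) ((d.1 : Equiv.Perm ((Fin m ⊕ Fin m) ⊕ Fin 2 → F)) v) =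
        s • (k : ((Fin m ⊕ Fin m) ⊕ Fin 2 → F) ≃ₗ[F] _) v) ∧
      spin (qMinus m F a b) k = -1 := by
  haveI : Finite ((Fin m ⊕ Fin m) ⊕ Fin 2 → F) := Pi.finite
  have hE := evenForm_qMinus (F := F) (m := m) (by omega) (disc_ne_zero hab)
  haveI := hE.nontrivial
  have hns : ¬ IsSquare (-1 : F) := by rw [FiniteField.isSquare_neg_one_iff, not_not]; exact h3
  -- a value of the binary form
  obtain ⟨p, r, hpr⟩ : ∃ p r : F, p ^ 2 + a * p * r + b * r ^ 2 = -1 := by
    have h1 : ∃ x y : F, x ^ 2 + (b - a ^ 2 / 4) * y ^ 2 + 1 = 0 := by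
      obtain ⟨t, ht⟩ : IsSquare (b - a ^ 2 / 4) := by
        obtain ⟨r, hr⟩ := (minus_isSquare_disc hab h2).2 hns
        refine ⟨r / 2, ?_⟩
        have h4 : (4 : F) = 2 * 2 := by norm_num
        rw [h4] at hr ⊢
        field_simp
        linear_combination hr
      have ht0 : t ≠ 0 := by
        rintro rfl
        refine disc_ne_zero hab ?_
        have h4 : (4 : F) ≠ 0 := by
          rw [show (4 : F) = 2 * 2 by norm_num]; exact mul_ne_zero h2 h2
        field_simp at ht
        linear_combination -ht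
      obtain ⟨x, y, hxy⟩ := FiniteField.exists_root_sum_quadratic
        (f := (Polynomial.X : Polynomial F) ^ 2) (g := (Polynomial.X : Polynomial F) ^ 2 + 1)
        (by simp) (by compute_degree!)
        (by
          obtain ⟨j, hj⟩ : ∃ j, Fintype.card F = 2 * j + 1 := ⟨Fintype.card F / 2, by omega⟩
          omega)
      refine ⟨x, y / t, ?_⟩
      simp only [Polynomial.eval_pow, Polynomial.eval_X, Polynomial.eval_add,
        Polynomial.eval_one] at hxy
      rw [ht]
      field_simp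
      linear_combination hxy
    obtain ⟨x, y, hxy⟩ := h1
    refine ⟨x - a / 2 * y, y, ?_⟩
    have h4 : (4 : F) = 2 * 2 := by norm_num
    rw [h4] at hxy
    field_simp at hxy ⊢
    linear_combination hxy
  let B : Matrix (Fin 2) (Fin 2) F := !![p, -(b * r); r, p + a * r]
  let A : Matrix (Fin m ⊕ Fin m) (Fin m ⊕ Fin m) F :=
    Matrix.diagonal (Sum.elim (fun _ => 1) (fun _ => -1))
  let M : Matrix ((Fin m ⊕ Fin m) ⊕ Fin 2) ((Fin m ⊕ Fin m) ⊕ Fin 2) F :=
    Matrix.fromBlocks A 0 0 B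
  have hdet : M.det = -1 := by
    rw [Matrix.det_fromBlocks_zero₂₁, Matrix.det_diagonal, Matrix.det_fin_two_of,
      Fintype.prod_sum_type]
    simp only [Sum.elim_inl, Sum.elim_inr, Finset.prod_const_one, Finset.prod_const,
      Finset.card_univ, Fintype.card_fin, he.neg_one_pow, one_mul]
    linear_combination hpr
  have hMl : ∀ v i, (M *ᵥ v) (.inl (.inl i)) = v (.inl (.inl i)) := fun v i => by
    simp [M, A, Matrix.fromBlocks_mulVec, Matrix.mulVec_diagonal]
  have hMr : ∀ v i, (M *ᵥ v) (.inl (.inr i)) = -v (.inl (.inr i)) := fun v i => by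
    simp [M, A, Matrix.fromBlocks_mulVec, Matrix.mulVec_diagonal]
  have hM0 : ∀ v, (M *ᵥ v) (.inr 0) = p * v (.inr 0) - b * r * v (.inr 1) := fun v => by
    simp [M, B, Matrix.fromBlocks_mulVec, Matrix.mulVec, dotProduct, Fin.sum_univ_two]
    ring
  have hM1 : ∀ v, (M *ᵥ v) (.inr 1) = r * v (.inr 0) + (p + a * r) * v (.inr 1) := fun v => by
    simp [M, B, Matrix.fromBlocks_mulVec, Matrix.mulVec, dotProduct, Fin.sum_univ_two]
  have hinj : IsUnit M.det := by rw [hdet]; exact isUnit_one.neg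
  let L : ((Fin m ⊕ Fin m) ⊕ Fin 2 → F) ≃ₗ[F] _ :=
    LinearMap.GeneralLinearGroup.generalLinearEquiv F _
      (Matrix.GeneralLinearGroup.toLin ((Matrix.isUnit_iff_isUnit_det M).2 hinj).unit)
  have hL : ∀ v, L v = M *ᵥ v := fun v => rfl
  have hq : ∀ v, qMinus m F a b (L v) = -1 * qMinus m F a b v := fun v => by
    simp only [coe_qMinus, Cfsg.quadFormMinus, hL, hMl, hMr, hM0, hM1, mul_neg,
      Finset.sum_neg_distrib]
    linear_combination (v (.inr 0) ^ 2 + a * v (.inr 0) * v (.inr 1) + b * v (.inr 1) ^ 2) * hpr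
  let d : linSim (qMinus m F a b) := toLinSim L (neg_ne_zero.2 one_ne_zero) hq
  have hdm : simMult d.1 = -1 := simMult_eq hE.exists_ne fun v => by
    rw [simSigma_linear d.2]; exact hq v
  let e0 : (Fin m ⊕ Fin m) ⊕ Fin 2 → F := Sum.elim 0 ![1, 0]
  let e2 : (Fin m ⊕ Fin m) ⊕ Fin 2 → F := Sum.elim 0 ![a, -2]
  let β : (Fin m ⊕ Fin m) ⊕ Fin 2 → F := Sum.elim 0 ![p, r]
  have hQ0 : qMinus m F a b e0 = 1 := by simp [coe_qMinus, Cfsg.quadFormMinus, e0]
  have hQ2 : qMinus m F a b e2 = 4 * b - a ^ 2 := by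
    simp [coe_qMinus, Cfsg.quadFormMinus, e2]
    ring
  have hQβ : qMinus m F a b β = -1 := by
    simp [coe_qMinus, Cfsg.quadFormMinus, β]
    linear_combination hpr
  have hD0 : 4 * b - a ^ 2 ≠ 0 := fun h => disc_ne_zero hab (by linear_combination -h)
  let k : orth (qMinus m F a b) := negOrth _ * (refl _ e0 * refl _ e2) * (refl _ β * refl _ e0)
  refine ⟨d, k, -1, ⟨fun _ => ?_, fun h => absurd h h2⟩, by rw [hdm]; exact hns, fun v => ?_, ?_⟩
  · rw [hdm, (he.add_one).neg_one_pow]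
    refine (mulVec_det M _ fun v => ?_).symm.trans hdet
    exact (hL v).symm
  · change L (L v) = _
    have hD : ∀ t : F, (4 * b - a ^ 2)⁻¹ * ((a ^ 2 - 4 * b) * t) = -t := fun t => by
      rw [← neg_sub (4 * b) (a ^ 2), neg_mul, mul_neg, inv_mul_cancel_left₀ hD0]
    simp only [k, orth_mul_apply, negOrth_apply, refl_apply, hQ0, hQ2, hQβ, hL]
    have hp0 : ∀ w, polar (qMinus m F a b) e0 w = 2 * w (.inr 0) + a * w (.inr 1) := fun w => by
      rw [polar_qMinus]; simp [e0]
    have hp2 : ∀ w, polar (qMinus m F a b) e2 w = (a ^ 2 - 4 * b) * w (.inr 1) := fun w => by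
      rw [polar_qMinus]; simp [e2]; ring
    have hpβ : ∀ w, polar (qMinus m F a b) β w =
        2 * (p * w (.inr 0)) + a * (p * w (.inr 1) + r * w (.inr 0)) + 2 * b * (r * w (.inr 1)) :=
      fun w => by rw [polar_qMinus]; simp [β]
    funext i
    rcases i with (i | i) | i
    · simp [e0, e2, β, hMl]
    · simp [e0, e2, β, hMr]
    · fin_cases i
      · simp only [hp0, hp2, hD]
        simp [hpβ, e0, e2, β, hM0, hM1]
        linear_combination -(v (.inr 0) + a * v (.inr 1)) * hpr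
      · simp only [hp0, hp2, hD]
        simp [hpβ, e0, e2, β, hM0, hM1]
        linear_combination v (.inr 1) * hpr
  · have hneg : spin (qMinus m F a b) (negOrth _) = 1 :=
      ((H5.mem_commutator_iff hE.nondeg hE.std).1
        ((negOrth_minus_iff hab h2 hm).2 ⟨he, h3⟩)).2
    simp only [k, map_mul, hneg, H5.spin_refl (show qMinus m F a b e0 ≠ 0 by rw [hQ0]; exact one_ne_zero),
      H5.spin_refl (show qMinus m F a b e2 ≠ 0 by rw [hQ2]; exact hD0),
      H5.spin_refl (show qMinus m F a b β ≠ 0 by rw [hQβ]; exact neg_ne_zero.2 one_ne_zero),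
      hQ0, hQ2, hQβ, H5.sqc_one, H5.sqc_eq_neg_one_iff.2 hns,
      H5.sqc_eq_one_iff.2 ((minus_isSquare_disc hab h2).2 hns), one_mul, mul_one]

end minus

end Cfsg.Agent.H62.Conformal
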