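import Mathlib.GroupTheory.SpecificGroups.Dihedral
import Mathlib.GroupTheory.SpecificGroups.KleinFour
import Mathlib.GroupTheory.SpecificGroups.Cyclic
import Mathlib.GroupTheory.Index

/-!
Small shapes of quotients of images: a homomorphism on an image from one on the source, and the
recognition of the groups of order two, four and eight that occur.
-/

set_option autoImplicit false

namespace Cfsg.Agent.H62.Shapes

variable {X Y A : Type*} [Group X] [Group Y] [Group A]

/-- A homomorphism on a subgroup whose kernel is the pullback of `N` descends to the image. -/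
theorem exists_hom_on_map (f : X →* Y) (S : Subgroup X) (ψ : S →* A) (hψ : Function.Surjective ψ)
    (N : Subgroup Y) (h : ∀ g : S, ψ g = 1 ↔ f g.1 ∈ N) :
    ∃ φ : S.map f →* A, Function.Surjective φ ∧ φ.ker = N.subgroupOf (S.map f) := by
  have hker : (f.subgroupMap S).ker ≤ ψ.ker := fun g hg => by
    have hg' : f g.1 = 1 := congrArg Subtype.val (MonoidHom.mem_ker.1 hg)
    exact MonoidHom.mem_ker.2 ((h g).2 (hg' ▸ one_mem N))
  let φ : S.map f →* A := (f.subgroupMap S).liftOfSurjective (f.subgroupMap_surjective S) ⟨ψ, hker⟩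
  have hφ : ∀ g : S, φ (f.subgroupMap S g) = ψ g := fun g =>
    MonoidHom.liftOfRightInverse_comp_apply _ _ _ _ g
  refine ⟨φ, fun a => ?_, ?_⟩
  · obtain ⟨g, rfl⟩ := hψ a
    exact ⟨_, hφ g⟩
  · ext y
    obtain ⟨g, rfl⟩ := f.subgroupMap_surjective S y
    rw [MonoidHom.mem_ker, hφ, h g, Subgroup.mem_subgroupOf]
    rfl

/-- The relative index read off from such a homomorphism. -/
theorem relIndex_of_hom (f : X →* Y) (S : Subgroup X) (ψ : S →* A) (hψ : Function.Surjective ψ)
    (N : Subgroup Y) (h : ∀ g : S, ψ g = 1 ↔ f g.1 ∈ N) :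
    N.relIndex (S.map f) = Nat.card A := by
  obtain ⟨φ, hφ, hk⟩ := exists_hom_on_map f S ψ hψ N h
  rw [Subgroup.relIndex, ← hk, Subgroup.index_ker, MonoidHom.range_eq_top.2 hφ, Subgroup.card_top]

/-- The sign group as a cyclic group of order two. -/
def unitsToZMod : ℤˣ →* Multiplicative (ZMod 2) where
  toFun u := Multiplicative.ofAdd (if u = 1 then 0 else 1)
  map_one' := by decide
  map_mul' := by decide

theorem unitsToZMod_eq_one {u : ℤˣ} : unitsToZMod u = 1 ↔ u = 1 := by
  revert u; decide

theorem unitsToZMod_surjective : Function.Surjective unitsToZMod := by decide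

/-- A pair of signs as a Klein four group. -/
def pairToZMod : ℤˣ × ℤˣ →* Multiplicative (ZMod 2 × ZMod 2) where
  toFun u := Multiplicative.ofAdd (if u.1 = 1 then 0 else 1, if u.2 = 1 then 0 else 1)
  map_one' := by decide
  map_mul' := by decide

theorem pairToZMod_eq_one {u : ℤˣ × ℤˣ} : pairToZMod u = 1 ↔ u.1 = 1 ∧ u.2 = 1 := by
  revert u; decide

theorem pairToZMod_surjective : Function.Surjective pairToZMod := by decide

/-- A group of order four with an element of order four. -/
theorem nonempty_cyclic_four {G : Type*} [Group G] (h4 : Nat.card G = 4) (x : G) (hx : x ^ 2 ≠ 1) :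
    Nonempty (G ≃* Multiplicative (ZMod 4)) := by
  haveI : Finite G := Nat.finite_of_card_ne_zero (by omega)
  haveI : IsCyclic G := isCyclic_of_orderOf_eq_card x (by
    rw [h4]
    refine orderOf_eq_prime_pow (p := 2) (n := 1) (by rwa [pow_one]) ?_
    rw [show (2 : ℕ) ^ (1 + 1) = Nat.card G from h4.symm]
    exact pow_card_eq_one')
  exact ⟨(zmodCyclicMulEquiv (inferInstance : IsCyclic G)).symm.trans
    (AddEquiv.toMultiplicative (ZMod.ringEquivCongr h4).toAddEquiv)⟩

/-- A group of order four with two different involutions. -/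
theorem nonempty_klein {G : Type*} [Group G] (h4 : Nat.card G = 4) (x y : G) (hx : x ^ 2 = 1)
    (hy : y ^ 2 = 1) (hx1 : x ≠ 1) (hy1 : y ≠ 1) (hxy : x ≠ y) :
    Nonempty (G ≃* Multiplicative (ZMod 2 × ZMod 2)) := by
  haveI : Finite G := Nat.finite_of_card_ne_zero (by omega)
  have hcyc : ¬ IsCyclic G := by
    intro hc
    classical
    have := Fintype.ofFinite G
    have h2 := IsCyclic.card_pow_eq_one_le (α := G) (n := 2) (by norm_num)
    have h3 : ({1, x, y} : Finset G).card ≤ 2 := by
      refine le_trans (Finset.card_le_card ?_) h2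
      intro z hz
      simp only [Finset.mem_insert, Finset.mem_singleton] at hz
      rcases hz with rfl | rfl | rfl <;> simp [hx, hy]
    rw [Finset.card_insert_of_notMem (by simp [hx1.symm, hy1.symm]),
      Finset.card_insert_of_notMem (by simpa using hxy), Finset.card_singleton] at h3
    omega
  haveI : IsKleinFour G := ⟨h4, (not_isCyclic_iff_exponent_eq_prime Nat.prime_two (by rw [h4]; rfl)).1 hcyc⟩
  haveI : IsKleinFour (Multiplicative (ZMod 2 × ZMod 2)) := inferInstance
  exact IsKleinFour.nonempty_mulEquiv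

/-- A group of order eight generated by a rotation and a reflection. -/
theorem nonempty_dihedral {G : Type*} [Group G] (h8 : Nat.card G = 8) (r s : G) (hr : r ^ 4 = 1)
    (hr2 : r ^ 2 ≠ 1) (hs : s ^ 2 = 1) (hsr : s * r * s = r⁻¹) (hsn : ∀ i : ℕ, s ≠ r ^ i) :
    Nonempty (DihedralGroup 4 ≃* G) := by
  haveI : Finite G := Nat.finite_of_card_ne_zero (by omega)
  have ho : orderOf r = 4 :=
    orderOf_eq_prime_pow (p := 2) (n := 1) (by rwa [pow_one]) hr
  have hmod : ∀ a b : ℕ, a % 4 = b % 4 → r ^ a = r ^ b := fun a b h =>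
    pow_eq_pow_iff_modEq.2 (by rw [ho]; exact h)
  let f : DihedralGroup 4 → G := fun z => match z with
    | .r i => r ^ i.val
    | .sr i => s * r ^ i.val
  have hs' : s * s = 1 := by rwa [← sq]
  have hconj : ∀ i : ℕ, r ^ i * s = s * (r ^ i)⁻¹ := by
    intro i
    have h1 : s * r ^ i * s = (r ^ i)⁻¹ := by
      induction i with
      | zero => simp [hs']
      | succ i ih =>
        calc s * r ^ (i + 1) * s = (s * r ^ i * s) * (s * r * s) := by
              rw [pow_succ]
              simp only [mul_assoc]
              rw [← mul_assoc s s, hs', one_mul]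
          _ = _ := by rw [ih, hsr, ← _root_.mul_inv_rev, ← pow_succ']
    rw [← h1, ← mul_assoc, ← mul_assoc, hs', one_mul]
  have hneg : ∀ i j : ZMod 4, (r ^ i.val)⁻¹ * r ^ j.val = r ^ (j - i).val := fun i j => by
    rw [inv_mul_eq_iff_eq_mul, ← pow_add]
    refine hmod _ _ ?_
    revert i j; decide
  have hmul : ∀ z w, f (z * w) = f z * f w := by
    intro z w
    rcases z with i | i <;> rcases w with j | j
    · simp only [DihedralGroup.r_mul_r, f]
      rw [← pow_add]; exact hmod _ _ (by revert i j; decide)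
    · simp only [DihedralGroup.r_mul_sr, f]
      rw [← mul_assoc, hconj, mul_assoc, hneg]
    · simp only [DihedralGroup.sr_mul_r, f]
      rw [mul_assoc, ← pow_add]; congr 1; exact hmod _ _ (by revert i j; decide)
    · simp only [DihedralGroup.sr_mul_sr, f]
      rw [mul_assoc, ← mul_assoc (r ^ i.val), hconj, mul_assoc, ← mul_assoc s s, hs', one_mul, hneg]
  let F' : DihedralGroup 4 →* G := MonoidHom.mk' f hmul
  have hinj : Function.Injective F' := by
    rw [injective_iff_map_eq_one]
    intro z hz
    rcases z with i | i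
    · have h1 : r ^ i.val = 1 := hz
      have h2 := orderOf_dvd_of_pow_eq_one h1
      rw [ho] at h2
      have h3 : i.val = 0 := Nat.eq_zero_of_dvd_of_lt h2 (ZMod.val_lt i)
      rw [(ZMod.val_eq_zero i).1 h3]; rfl
    · exfalso
      have h1 : s * r ^ i.val = 1 := hz
      refine hsn (i.val) ?_
      calc s = s⁻¹ := (inv_eq_of_mul_eq_one_right hs').symm
        _ = _ := inv_eq_of_mul_eq_one_right h1
  exact ⟨MulEquiv.ofBijective F' ((Nat.bijective_iff_injective_and_card _).2
    ⟨hinj, by rw [h8, DihedralGroup.nat_card]⟩)⟩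

end Cfsg.Agent.H62.Shapes
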