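import Cfsg.Agent.H4.Coset.EvenGen
import Cfsg.Agent.H62.QuotientShapes

/-!
The images of the conformal, special orthogonal and inner groups in the automorphism group of
`PΩ` of an even-dimensional form in odd characteristic, without the restriction on the dimension
that the automorphism theorem needs.
-/

set_option autoImplicit false
set_option maxHeartbeats 400000

namespace Cfsg.Agent.H62.Conformal

open QuadraticMap hiding sq
open Module
open scoped Matrix commutatorElement
open Cfsg.Agent.H4
open Cfsg.Agent.H5 (orth refl dick spin sqc orth_map orth_ext orth_mul_apply omegaEquiv pomegaEquiv)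

variable {F V : Type*} [Field F] [AddCommGroup V] [Module F V] [Finite F] [FiniteDimensional F V]
  [Finite V] {Q : QuadraticForm F V}

/-- A semisimilarity inducing the identity on `PΩ` is a scalar (any dimension at least five). -/
theorem scalar_of_simHom_eq_one (hQ : (polarBilin Q).Nondegenerate) (hn : 5 ≤ finrank F V)
    (g : semiSimGroup Q) (h : simHom Q g = 1) : ∃ d : F, ∀ v, (g : Equiv.Perm V) v = d • v := by
  have hs := isSemiSim g
  set C := commutator (orth Q) with hC
  have hz : ∀ u : C, u⁻¹ * simConjOmega hs u ∈ Subgroup.center C := by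
    intro u
    have h1 := DFunLike.congr_fun h (piQ Q u)
    rw [simHom_apply, simBar_pi, MulAut.one_apply] at h1
    exact QuotientGroup.eq.1 h1.symm
  let ζ : C →* Subgroup.center C :=
    { toFun := fun u => ⟨_, hz u⟩
      map_one' := Subtype.ext (by simp)
      map_mul' := fun u w => Subtype.ext (by
        have hc := Subgroup.mem_center_iff.1 (hz u)
        simp only [map_mul, _root_.mul_inv_rev, Subgroup.coe_mul]
        calc w⁻¹ * u⁻¹ * (simConjOmega hs u * simConjOmega hs w)
            = w⁻¹ * (u⁻¹ * simConjOmega hs u) * simConjOmega hs w := by simp only [mul_assoc]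
          _ = (u⁻¹ * simConjOmega hs u) * w⁻¹ * simConjOmega hs w := by rw [hc w⁻¹]
          _ = _ := by simp only [mul_assoc]) }
  have hperf : ∀ u : C, ζ u = 1 := by
    have htop : commutator C = ⊤ := by
      rw [← Subgroup.map_subtype_inj, ← MonoidHom.range_eq_map, Subgroup.range_subtype,
        commutator_def, Subgroup.map_commutator, ← MonoidHom.range_eq_map, Subgroup.range_subtype]
      exact H5.commutator_perfect hQ hn
    intro u
    have hu : u ∈ commutator C := htop ▸ Subgroup.mem_top u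
    refine (Subgroup.commutator_le.2 (?_ : ∀ a ∈ (⊤ : Subgroup C), ∀ b ∈ (⊤ : Subgroup C), ⁅a, b⁆ ∈ ζ.ker)) (commutator_def C ▸ hu)
    exact fun a _ b _ => by
      rw [MonoidHom.mem_ker, commutatorElement_def, map_mul, map_mul, map_mul, map_inv, map_inv]
      have hc : ζ a * ζ b = ζ b * ζ a :=
        Subtype.ext (Subgroup.mem_center_iff.1 (ζ b).2 (ζ a : C))
      rw [hc, mul_assoc (ζ b), mul_inv_cancel, mul_one, mul_inv_cancel]
  have hfix : ∀ u : C, simConj hs (u : orth Q) = (u : orth Q) := fun u => by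
    have h1 := congrArg Subtype.val (hperf u)
    simp only [Subgroup.coe_one] at h1
    have h2 : simConjOmega hs u = u := (inv_mul_eq_one.1 h1).symm
    rw [← coe_simConjOmega, h2]
  refine exists_eq_smul_of_fix_lines hQ hn (simEquiv g) fun a ha => ?_
  rcases eq_or_ne a 0 with rfl | ha0
  · simp
  have hga : Q (simEquiv g a) = 0 := by rw [hs.map_app, ha, map_zero, mul_zero]
  refine mem_span_of_rootGroup_le hQ (by omega) ha0 ha hga fun k hk => ?_
  have hkC : k ∈ commutator (orth Q) :=
    (H5.commutator_eq_eichGroup hQ (by omega) (Or.inr (by omega))).ge (rootGroup_le_eich a hk)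
  obtain ⟨b, hb, rfl⟩ := (mem_rootGroup ha).1 hk
  have h3 : simConj hs (H5.eich Q a b) = H5.eich Q a b := hfix ⟨_, hkC⟩
  rw [← h3]
  rw [simConj_eich hs ha hb, ← rootGroup_smul hga (inv_ne_zero hs.ne_zero)]
  exact eich_mem_rootGroup (by rw [polar_smul_left, hs.polar_map, hb, map_zero, mul_zero, smul_zero])

/-- Scalars induce the identity. -/
theorem simHom_eq_one_of_scalar (g : semiSimGroup Q) {d : F}
    (hd : ∀ v, (g : Equiv.Perm V) v = d • v) : simHom Q g = 1 := by
  refine MulEquiv.ext fun X => ?_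
  obtain ⟨u, rfl⟩ := QuotientGroup.mk'_surjective _ X
  rw [simHom_apply, simBar_pi, MulAut.one_apply]
  congr 1
  refine (eq_simConjOmega _ fun v => ?_).symm
  rw [simEquiv_apply, simEquiv_apply, hd, hd, map_smul]

/-- Transport of an inner automorphism. -/
theorem congr_symm_conj {G H : Type*} [Group G] [Group H] (E : G ≃* H) (x : H) :
    (MulAut.congr E).symm.toMonoidHom (MulAut.conj x) = MulAut.conj (E.symm x) :=
  MulEquiv.ext fun y => E.injective (by simp)

section carrier

variable {ι : Type} [Fintype ι] [DecidableEq ι] {R : QuadraticForm F (ι → F)} {f : (ι → F) → F}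
  {n : ℕ} (hf : ⇑R = f) (hE : EvenForm R n)

include hE in
theorem five_le : 5 ≤ finrank F (ι → F) := by have := hE.rank; have := hE.three_le; omega

include hE in
theorem indHom_eq_one_iff' (g : semiSimGroup R) :
    indHom R hf g = 1 ↔ ∃ d : F, ∀ v, (g : Equiv.Perm (ι → F)) v = d • v := by
  haveI : Finite (ι → F) := Pi.finite
  rw [indHom, MonoidHom.comp_apply]
  refine ⟨fun h => scalar_of_simHom_eq_one hE.nondeg (five_le hE) g
    ((MulAut.congr (pomegaEquiv R hf)).symm.injective (h.trans (map_one _).symm)), ?_⟩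
  rintro ⟨d, hd⟩
  rw [simHom_eq_one_of_scalar g hd, map_one]

include hE in
/-- Two semisimilarities inducing the same automorphism differ by a scalar, and conversely. -/
theorem indHom_eq_iff' {g g' : semiSimGroup R} :
    indHom R hf g = indHom R hf g' ↔
      ∃ d : F, ∀ v, (g : Equiv.Perm (ι → F)) v = d • (g' : Equiv.Perm (ι → F)) v := by
  rw [← mul_inv_eq_one, ← map_inv, ← map_mul, indHom_eq_one_iff' hf hE]
  refine ⟨fun ⟨d, hd⟩ => ⟨d, fun v => ?_⟩, fun ⟨d, hd⟩ => ⟨d, fun v => ?_⟩⟩
  · rw [← hd, Subgroup.coe_mul, Equiv.Perm.mul_apply]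
    congr 1
    exact ((g' : Equiv.Perm (ι → F)).symm_apply_apply v).symm
  · rw [Subgroup.coe_mul, Equiv.Perm.mul_apply, hd]
    congr 1
    exact (g' : Equiv.Perm (ι → F)).apply_symm_apply v

omit [Finite F] in
/-- An element of `Ω` induces the conjugation by its image. -/
theorem indHom_omega (u : commutator (orth R)) :
    indHom R hf (orthToSim R (u : orth R)) =
      MulAut.conj ((pomegaEquiv R hf).symm (piQ R u)) := by
  rw [indHom, MonoidHom.comp_apply, simHom_orthToSim]
  exact congr_symm_conj (pomegaEquiv R hf) (piQ R u)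

omit [Finite F] in
/-- The inner automorphisms are the images of `Ω`. -/
theorem inn_eq :
    Cfsg.Inn (Cfsg.POmega F f) =
      ((commutator (orth R)).map (orthToSim R)).map (indHom R hf) := by
  ext β
  constructor
  · rintro ⟨X, rfl⟩
    obtain ⟨u, hu⟩ := QuotientGroup.mk'_surjective _ (pomegaEquiv R hf X)
    refine ⟨_, ⟨u, u.2, rfl⟩, ?_⟩
    rw [indHom_omega hf u, show piQ R u = pomegaEquiv R hf X from hu, MulEquiv.symm_apply_apply]
  · rintro ⟨_, ⟨k, hk, rfl⟩, rfl⟩
    exact ⟨(pomegaEquiv R hf).symm (piQ R ⟨k, hk⟩), (indHom_omega hf ⟨k, hk⟩).symm⟩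

include hE in
theorem indHom_mem_inn_iff' (g : semiSimGroup R) :
    indHom R hf g ∈ Cfsg.Inn (Cfsg.POmega F f) ↔ ∃ d : F, ∃ k ∈ commutator (orth R),
      ∀ v, (g : Equiv.Perm (ι → F)) v = d • (k : (ι → F) ≃ₗ[F] (ι → F)) v := by
  rw [inn_eq hf]
  constructor
  · rintro ⟨_, ⟨k, hk, rfl⟩, h⟩
    obtain ⟨d, hd⟩ := (indHom_eq_iff' hf hE).1 h.symm
    exact ⟨d, k, hk, hd⟩
  · rintro ⟨d, k, hk, hd⟩
    exact ⟨_, ⟨k, hk, rfl⟩, ((indHom_eq_iff' hf hE).2 ⟨d, hd⟩).symm⟩

include hE in
/-- The similarities among the isometries of trivial Dickson invariant. -/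
def specialSim : Subgroup (semiSimGroup R) :=
  haveI : Finite (ι → F) := Pi.finite
  properSim hE ⊓ (orthToSim R).range

include hE in
theorem orth_mem_specialSim_iff (k : orth R) :
    orthToSim R k ∈ specialSim hE ↔ dick k = 1 := by
  haveI : Finite (ι → F) := Pi.finite
  rw [specialSim, Subgroup.mem_inf]
  exact ⟨fun h => (orthToSim_mem_properSim_iff hE k).1 h.1,
    fun h => ⟨(orthToSim_mem_properSim_iff hE k).2 h, k, rfl⟩⟩

include hE in
theorem det_iff_dick (h2 : (2 : F) ≠ 0) (k : orth R) :
    LinearMap.det ((k : (ι → F) ≃ₗ[F] (ι → F)) : (ι → F) →ₗ[F] (ι → F)) = 1 ↔ dick k = 1 := by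
  haveI : Finite (ι → F) := Pi.finite
  rw [hE.det_orth]
  rcases Int.units_eq_one_or (dick k) with h | h <;> rw [h]
  · simp
  · simp only [Units.val_neg, Units.val_one, Int.cast_neg, Int.cast_one]
    exact iff_of_false (fun h' => h2 (by linear_combination -h')) (by decide)

omit [Finite F] in
theorem mulVec_det (M : Matrix ι ι F) (L : (ι → F) →ₗ[F] (ι → F)) (h : ∀ v, M *ᵥ v = L v) :
    M.det = LinearMap.det L := by
  rw [show L = Matrix.toLin' M from LinearMap.ext fun v => by rw [Matrix.toLin'_apply, h],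
    LinearMap.det_toLin']

include hf hE in
/-- The conformal image is the image of the similarities. -/
theorem pgoAut_eq : Cfsg.pgoAut F f = (linSim R).map (indHom R hf) := by
  haveI : Finite (ι → F) := Pi.finite
  haveI := hE.nontrivial
  refine le_antisymm ((Subgroup.closure_le _).2 ?_) ?_
  · rintro β ⟨M, ⟨c, hc⟩, hβ⟩
    obtain ⟨g, hg, hgs⟩ := exists_sim_of_pair R hf (M := M) (σ := RingEquiv.refl F) ⟨c, hc⟩
    exact ⟨g, hgs, ((induced_iff R hf g M _ hg β).1 hβ).symm⟩
  · rintro _ ⟨g, hg, rfl⟩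
    refine Subgroup.subset_closure ?_
    set M := semiMatrix (simEquiv g) (RingEquiv.refl F) hg
    have hMv : ∀ v, (M : Matrix _ _ F) *ᵥ v = (g : Equiv.Perm _) v := fun v =>
      semiMatrix_mulVec (simEquiv g) (RingEquiv.refl F) hg v
    exact ⟨M, ⟨Units.mk0 _ (isSemiSim g).ne_zero, fun v => by
        rw [Units.val_mk0, hMv, ← hf]; exact linSim_app _ ⟨g, hg⟩ v⟩,
      (induced_iff R hf g M _ hMv _).2 rfl⟩

include hf hE in
/-- The special orthogonal image. -/
theorem psoAut_eq (h2 : (2 : F) ≠ 0) :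
    Cfsg.psoAut F f = (specialSim hE).map (indHom R hf) := by
  haveI : Finite (ι → F) := Pi.finite
  haveI := hE.nontrivial
  refine le_antisymm ((Subgroup.closure_le _).2 ?_) ?_
  · rintro β ⟨M, ⟨hM, hdet⟩, hβ⟩
    have hmap : ∀ v, R ((M : Matrix ι ι F) *ᵥ v) = R v := fun v => by
      rw [hf]; exact hM v v
    let L : (ι → F) ≃ₗ[F] (ι → F) := LinearMap.GeneralLinearGroup.generalLinearEquiv F (ι → F)
      (Matrix.GeneralLinearGroup.toLin M)
    have hL : ∀ v, L v = (M : Matrix ι ι F) *ᵥ v := fun v => rfl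
    let k : orth R := ⟨L, fun v => by rw [hL]; exact hmap v⟩
    have hd : dick k = 1 := (det_iff_dick hE h2 k).1 (by
      rw [← mulVec_det (M : Matrix ι ι F) _ (fun v => (hL v).symm)]
      have hdet' := hdet
      simp only [Cfsg.Geo.specialLinear, MonoidHom.mem_ker] at hdet'
      exact congrArg Units.val hdet')
    exact ⟨_, (orth_mem_specialSim_iff hE k).2 hd,
      ((induced_iff R hf (orthToSim R k) M (RingEquiv.refl F) (fun v => rfl) β).1 hβ).symm⟩
  · rintro _ ⟨g, hg, rfl⟩
    obtain ⟨k, rfl⟩ := hg.2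
    have hd := (orth_mem_specialSim_iff hE k).1 hg
    refine Subgroup.subset_closure ?_
    set M := semiMatrix (simEquiv (orthToSim R k)) (RingEquiv.refl F) (orthToSim_mem R k)
    have hMv : ∀ v, (M : Matrix _ _ F) *ᵥ v = (k : (ι → F) ≃ₗ[F] (ι → F)) v := fun v =>
      semiMatrix_mulVec (simEquiv (orthToSim R k)) (RingEquiv.refl F) (orthToSim_mem R k) v
    refine ⟨M, ⟨fun v => ?_, ?_⟩, (induced_iff R hf _ M _ hMv _).2 rfl⟩
    · intro _
      change f ((M : Matrix ι ι F) *ᵥ v) = f v
      rw [hMv, ← hf, orth_map]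
    · simp only [Cfsg.Geo.specialLinear, SetLike.mem_coe, MonoidHom.mem_ker]
      refine Units.ext ?_
      change (M : Matrix ι ι F).det = 1
      rw [mulVec_det _ _ hMv]
      exact (det_iff_dick hE h2 k).2 hd

include hf hE in
theorem inn_le_psoAut (h2 : (2 : F) ≠ 0) :
    Cfsg.Inn (Cfsg.POmega F f) ≤ Cfsg.psoAut F f := by
  haveI : Finite (ι → F) := Pi.finite
  rw [inn_eq hf, psoAut_eq hf hE h2]
  refine Subgroup.map_mono ?_
  rintro _ ⟨k, hk, rfl⟩
  exact (orth_mem_specialSim_iff hE k).2 ((H5.mem_commutator_iff hE.nondeg hE.std).1 hk).1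

include hE in
/-- Inner classes among the isometries of trivial Dickson invariant. -/
theorem orth_mem_inn_iff (k : orth R) (hd : dick k = 1) :
    indHom R hf (orthToSim R k) ∈ Cfsg.Inn (Cfsg.POmega F f) ↔
      spin R k = 1 ∨ negOrth R * k ∈ commutator (orth R) := by
  haveI : Finite (ι → F) := Pi.finite
  rw [indHom_mem_inn_iff' hf hE]
  constructor
  · rintro ⟨d, l, hl, hl'⟩
    obtain ⟨v, hv⟩ := hE.exists_ne
    have h1 := orth_map k v
    rw [← orthToSim_apply, hl', qf_smul, orth_map, mul_left_eq_self₀] at h1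
    rcases sq_eq_one_iff.1 (h1.resolve_right hv) with rfl | rfl
    · left
      rw [show k = l from orth_ext fun w => by simpa [orthToSim_apply] using hl' w]
      exact ((H5.mem_commutator_iff hE.nondeg hE.std).1 hl).2
    · right
      rwa [show negOrth R * k = l from orth_ext fun w => by
        rw [orth_mul_apply, negOrth_apply, ← orthToSim_apply, hl' w]; simp]
  · rintro (h | h)
    · exact ⟨1, k, (H5.mem_commutator_iff hE.nondeg hE.std).2 ⟨hd, h⟩,
        fun v => by rw [one_smul, orthToSim_apply]⟩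
    · exact ⟨-1, _, h, fun v => by
        rw [orth_mul_apply, negOrth_apply, neg_one_smul, neg_neg, orthToSim_apply]⟩

end carrier

end Cfsg.Agent.H62.Conformal
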