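import Cfsg.Agent.H62.ConformalAut

/-!
The quotients of the conformal, proper and special orthogonal images by the inner automorphisms.
-/

set_option autoImplicit false
set_option maxHeartbeats 400000

namespace Cfsg.Agent.H62.Conformal

open QuadraticMap hiding sq
open Module
open Cfsg.Agent.H4
open Cfsg.Agent.H62.Shapes
open Cfsg.Agent.H5 (orth refl dick spin sqc orth_map orth_ext orth_mul_apply)

/-- The inner automorphisms form a normal subgroup. -/
theorem inn_normal (G : Type*) [Group G] : (Cfsg.Inn G).Normal where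
  conj_mem x hx β := by
    obtain ⟨g, rfl⟩ := hx
    exact ⟨β g, MulEquiv.ext fun y => by simp [MulAut.conj_apply, MulAut.mul_apply]⟩

/-- A homomorphism with a prescribed kernel from an isomorphism of the image in the quotient. -/
theorem exists_hom_of_image {Y A : Type*} [Group Y] [Group A] (P N : Subgroup Y) [N.Normal]
    (e : P.map (QuotientGroup.mk' N) ≃* A) :
    ∃ φ : P →* A, Function.Surjective φ ∧ φ.ker = N.subgroupOf P :=
  ⟨e.toMonoidHom.comp ((QuotientGroup.mk' N).subgroupMap P),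
    e.surjective.comp ((QuotientGroup.mk' N).subgroupMap_surjective P),
    Subgroup.ext fun x => by
      rw [MonoidHom.mem_ker, MonoidHom.comp_apply, Subgroup.mem_subgroupOf]
      refine (map_eq_one_iff e.toMonoidHom e.injective).trans ?_
      rw [Subtype.ext_iff]
      exact QuotientGroup.eq_one_iff (x : Y)⟩

theorem card_image_mk {Y : Type*} [Group Y] (P N : Subgroup Y) [N.Normal] :
    Nat.card (P.map (QuotientGroup.mk' N)) = N.relIndex P := by
  have h := relIndex_of_hom (MonoidHom.id Y) P ((QuotientGroup.mk' N).subgroupMap P)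
    ((QuotientGroup.mk' N).subgroupMap_surjective P) N
    (fun g => Subtype.ext_iff.trans (QuotientGroup.eq_one_iff (g : Y)))
  rw [Subgroup.map_id] at h
  exact h.symm

theorem pow_four_eq_one {G : Type*} [Monoid G] {r p : G} (h : r * r = p) (hp : p * p = 1) :
    r ^ 4 = 1 := by
  rw [show (4 : ℕ) = 2 * 2 from rfl, pow_mul, sq, sq, h, hp]

/-- A subgroup of order eight holding two commuting involutions exchanged by a third element. -/
theorem dihedral_of_relations {G : Type*} [Group G] (P : Subgroup G) (hcard : Nat.card P = 8)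
    {p₁ p₂ b : G} (hp1 : p₁ ∈ P) (hb : b ∈ P) (h11 : p₁ * p₁ = 1) (hcomm : p₁ * p₂ = p₂ * p₁)
    (hne : p₁ * p₂ ≠ 1) (hconj : b * p₁ * b⁻¹ = p₂) (h1212 : p₁ * p₂ * (p₁ * p₂) = 1)
    (hbb : b * b = 1 ∨ b * b = p₁ * p₂) : Nonempty (DihedralGroup 4 ≃* P) := by
  have hbk : b * p₁ = p₂ * b := mul_inv_eq_iff_eq_mul.1 hconj
  obtain ⟨r, hrP, hr2, hsr⟩ : ∃ r ∈ P, r * r = p₁ * p₂ ∧ p₁ * r * p₁ * r = 1 := by
    rcases hbb with hb2 | hb2
    · refine ⟨b * p₁, mul_mem hb hp1, ?_, ?_⟩
      · calc b * p₁ * (b * p₁) = p₂ * b * (b * p₁) := by rw [hbk]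
          _ = p₂ * (b * b) * p₁ := by simp only [mul_assoc]
          _ = p₁ * p₂ := by rw [hb2, mul_one, hcomm]
      · calc p₁ * (b * p₁) * p₁ * (b * p₁) = p₁ * b * (p₁ * p₁) * b * p₁ := by simp only [mul_assoc]
          _ = p₁ * (b * b) * p₁ := by rw [h11, mul_one]; simp only [mul_assoc]
          _ = 1 := by rw [hb2, mul_one, h11]
    · refine ⟨b, hb, hb2, ?_⟩
      calc p₁ * b * p₁ * b = p₁ * (b * p₁) * b := by simp only [mul_assoc]
        _ = (p₁ * p₂) * (b * b) := by rw [hbk]; simp only [mul_assoc]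
        _ = 1 := by rw [hb2, h1212]
  refine nonempty_dihedral hcard ⟨r, hrP⟩ ⟨p₁, hp1⟩ (Subtype.ext ?_) (fun h => hne ?_)
    (Subtype.ext ?_) (Subtype.ext ?_) (fun i h => hne ?_)
  · exact pow_four_eq_one hr2 h1212
  · have h' : r ^ 2 = 1 := congrArg Subtype.val h
    rwa [sq, hr2] at h'
  · change p₁ ^ 2 = 1
    rw [sq, h11]
  · exact eq_inv_iff_mul_eq_one.2 hsr
  · have h' : p₁ = r ^ i := congrArg Subtype.val h
    have hc : p₁ * r = r * p₁ := by rw [h']; exact ((Commute.refl r).pow_left i).eq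
    rw [hc, mul_assoc r, h11, mul_one, hr2] at hsr
    exact hsr

variable {F : Type*} [Field F] [Fintype F] {ι : Type} [Fintype ι] [DecidableEq ι]
  {R : QuadraticForm F (ι → F)} {f : (ι → F) → F} {n : ℕ} (hf : ⇑R = f) (hE : EvenForm R n)
  (h2 : (2 : F) ≠ 0)

include hE in
/-- The square class of the multiplier. -/
noncomputable def multSign : linSim R →* ℤˣ where
  toFun g := sqc (simMult g.1)
  map_one' := by
    haveI : Finite (ι → F) := Pi.finite
    haveI := hE.nontrivial
    rw [show simMult (1 : linSim R).1 = 1 from simMult_eq hE.exists_ne fun v => by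
      rw [simSigma_linear (1 : linSim R).2]; simp]
    exact H5.sqc_one
  map_mul' a b := by
    haveI : Finite (ι → F) := Pi.finite
    rw [simMult_linSim_mul hE, H5.sqc_mul (isSemiSim a.1).ne_zero (isSemiSim b.1).ne_zero]

include hE in
open Classical in
/-- The sign recording properness. -/
noncomputable def properSign : linSim R →* ℤˣ where
  toFun g := if IsProper n g then 1 else -1
  map_one' := by
    haveI : Finite (ι → F) := Pi.finite
    exact if_pos (isProper_one hE)
  map_mul' a b := by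
    haveI : Finite (ι → F) := Pi.finite
    have h := isProper_mul_iff hE a b
    by_cases ha : IsProper n a <;> by_cases hb : IsProper n b <;> simp [h, ha, hb]

include hE in
theorem properSign_eq_one (g : linSim R) : properSign hE g = 1 ↔ IsProper n g := by
  classical
  change (if IsProper n g then (1 : ℤˣ) else -1) = 1 ↔ _
  by_cases h : IsProper n g <;> simp [h]

include hE in
/-- The special orthogonal image among the similarities. -/
theorem mem_psoAut_iff (hf : ⇑R = f) (h2 : (2 : F) ≠ 0) (g : linSim R) :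
    indHom R hf g.1 ∈ Cfsg.psoAut F f ↔ IsProper n g ∧ IsSquare (simMult g.1) := by
  haveI : Finite (ι → F) := Pi.finite
  rw [psoAut_eq hf hE h2]
  constructor
  · rintro ⟨g', hg', h⟩
    obtain ⟨k, rfl⟩ := hg'.2
    obtain ⟨d, hd⟩ := (indHom_eq_iff' hf hE).1 h.symm
    simp only [orthToSim_apply] at hd
    exact ⟨(isProper_smul_iff hE g k hd).2 ((orth_mem_specialSim_iff hE k).1 hg'), d,
      by rw [(mult_of_smul hE g k hd).1, sq]⟩
  · rintro ⟨hp, hsq⟩
    obtain ⟨k, s, hk⟩ := exists_smul_orth_of_isSquare hE g hsq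
    exact ⟨_, (orth_mem_specialSim_iff hE k).2 ((isProper_smul_iff hE g k hk).1 hp),
      ((indHom_eq_iff' hf hE).2 ⟨s, fun v => by rw [orthToSim_apply]; exact hk v⟩).symm⟩

include hE in
theorem exists_refl_of_value {c : F} (hc : c ≠ 0) :
    ∃ v : ι → F, R v = c ∧ dick (refl R v) = -1 ∧ spin R (refl R v) = sqc c := by
  haveI : Finite (ι → F) := Pi.finite
  haveI := Fintype.ofFinite F
  obtain ⟨v, -, hv⟩ := exists_value hE.nondeg (by have := hE.rank; have := hE.three_le; omega) hc
  have hv0 : R v ≠ 0 := by rw [hv]; exact hc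
  exact ⟨v, hv, H5.dick_refl hE.nondeg hv0, by rw [H5.spin_refl hv0, hv]⟩

include hE h2 in
/-- An improper similarity of multiplier one. -/
theorem exists_improper :
    ∃ r : linSim R, ¬ IsProper n r ∧ sqc (simMult r.1) = 1 := by
  haveI : Finite (ι → F) := Pi.finite
  obtain ⟨v, -, hd, -⟩ := exists_refl_of_value hE (one_ne_zero (α := F))
  let r : linSim R := ⟨orthToSim R (refl R v), orthToSim_mem R _⟩
  have hr : ∀ w, (r.1 : Equiv.Perm (ι → F)) w = (1 : F) • ((refl R v : orth R) : (ι → F) ≃ₗ[F] (ι → F)) w :=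
    fun w => by rw [one_smul]; rfl
  refine ⟨r, fun hp => ?_, ?_⟩
  · rw [(isProper_smul_iff hE r _ hr).1 hp] at hd
    exact absurd hd (by decide)
  · rw [(mult_of_smul hE r _ hr).1, one_pow, H5.sqc_one]

include hE h2 in
/-- A proper similarity with non-square multiplier. -/
theorem exists_proper_nonsquare (hmult : ∀ c : F, c ≠ 0 → c ∈ similMults R) :
    ∃ d : linSim R, IsProper n d ∧ ¬ IsSquare (simMult d.1) := by
  haveI : Finite (ι → F) := Pi.finite
  haveI := hE.nontrivial
  obtain ⟨c, hc⟩ := H5.exists_not_isSquare h2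
  have hc0 : c ≠ 0 := fun h => hc (h ▸ IsSquare.zero)
  obtain ⟨-, δ, hδ⟩ := hmult c hc0
  let d : linSim R := toLinSim δ hc0 hδ
  have hdm : simMult d.1 = c := simMult_eq hE.exists_ne fun v => by
    rw [simSigma_linear d.2]; exact hδ v
  by_cases hp : IsProper n d
  · exact ⟨d, hp, by rw [hdm]; exact hc⟩
  obtain ⟨r, hr, hrm⟩ := exists_improper hE h2
  refine ⟨r * d, (isProper_mul_iff hE r d).2 (iff_of_false hr hp), ?_⟩
  rw [← H5.sqc_eq_neg_one_iff, simMult_linSim_mul hE,
    H5.sqc_mul (isSemiSim r.1).ne_zero (isSemiSim d.1).ne_zero, hrm, one_mul, hdm,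
    H5.sqc_eq_neg_one_iff]
  exact hc

include hf hE h2 in
/-- The conformal image modulo the special orthogonal image is a Klein four group. -/
theorem pgo_mod_pso (hmult : ∀ c : F, c ≠ 0 → c ∈ similMults R) :
    (∃ φ : Cfsg.pgoAut F f →* Multiplicative (ZMod 2 × ZMod 2), Function.Surjective φ ∧
      φ.ker = (Cfsg.psoAut F f).subgroupOf (Cfsg.pgoAut F f)) ∧
      (Cfsg.psoAut F f).relIndex (Cfsg.pgoAut F f) = 4 := by
  haveI : Finite (ι → F) := Pi.finite
  rw [pgoAut_eq hf hE]
  let ψ : linSim R →* Multiplicative (ZMod 2 × ZMod 2) :=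
    pairToZMod.comp ((properSign hE).prod (multSign hE))
  have hψ : Function.Surjective ψ := by
    intro a
    obtain ⟨⟨x, y⟩, rfl⟩ := pairToZMod_surjective a
    obtain ⟨r, hr, hrm⟩ := exists_improper hE h2
    obtain ⟨d, hd, hdm⟩ := exists_proper_nonsquare hE h2 hmult
    have hr1 : properSign hE r = -1 :=
      (Int.units_eq_one_or _).resolve_left fun h => hr ((properSign_eq_one hE r).1 h)
    have hd1 : properSign hE d = 1 := (properSign_eq_one hE d).2 hd
    have hr2 : multSign hE r = 1 := hrm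
    have hd2 : multSign hE d = -1 := H5.sqc_eq_neg_one_iff.2 hdm
    rcases Int.units_eq_one_or x with rfl | rfl <;> rcases Int.units_eq_one_or y with rfl | rfl
    · exact ⟨1, by simp [ψ]⟩
    · exact ⟨d, by simp [ψ, hd1, hd2]⟩
    · exact ⟨r, by simp [ψ, hr1, hr2]⟩
    · exact ⟨r * d, by simp [ψ, hr1, hr2, hd1, hd2]⟩
  have hker : ∀ g : linSim R, ψ g = 1 ↔ indHom R hf g.1 ∈ Cfsg.psoAut F f := fun g => by
    rw [mem_psoAut_iff hE hf h2, ← properSign_eq_one hE, ← H5.sqc_eq_one_iff]
    exact pairToZMod_eq_one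
  refine ⟨exists_hom_on_map _ _ ψ hψ _ hker, ?_⟩
  rw [relIndex_of_hom _ _ ψ hψ _ hker]
  simp

include hf hE h2 in
/-- The proper image modulo the special orthogonal image has order two. -/
theorem proper_mod_pso (hmult : ∀ c : F, c ≠ 0 → c ∈ similMults R) :
    (∃ φ : properImage hf hE →* Multiplicative (ZMod 2), Function.Surjective φ ∧
      φ.ker = (Cfsg.psoAut F f).subgroupOf (properImage hf hE)) ∧
      (Cfsg.psoAut F f).relIndex (properImage hf hE) = 2 := by
  haveI : Finite (ι → F) := Pi.finite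
  rw [properImage]
  let ψ : properSim hE →* Multiplicative (ZMod 2) :=
    (unitsToZMod.comp (multSign hE)).comp (Subgroup.inclusion (properSim_le hE))
  have hψ : Function.Surjective ψ := by
    intro a
    obtain ⟨x, rfl⟩ := unitsToZMod_surjective a
    obtain ⟨d, hd, hdm⟩ := exists_proper_nonsquare hE h2 hmult
    rcases Int.units_eq_one_or x with rfl | rfl
    · exact ⟨1, by simp [ψ]⟩
    · exact ⟨⟨d.1, (mem_properSim hE).2 hd⟩, congrArg unitsToZMod (H5.sqc_eq_neg_one_iff.2 hdm)⟩
  have hker : ∀ g : properSim hE, ψ g = 1 ↔ indHom R hf g.1 ∈ Cfsg.psoAut F f := fun g => by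
    have h := mem_psoAut_iff hE hf h2 (Subgroup.inclusion (properSim_le hE) g)
    rw [and_iff_right ((mem_properSim hE (g := Subgroup.inclusion (properSim_le hE) g)).1 g.2),
      ← H5.sqc_eq_one_iff] at h
    exact unitsToZMod_eq_one.trans h.symm
  refine ⟨exists_hom_on_map _ _ ψ hψ _ hker, ?_⟩
  rw [relIndex_of_hom _ _ ψ hψ _ hker]
  simp

include hE h2 in
theorem dick_negOrth_one : dick (negOrth R) = 1 := by
  haveI : Finite (ι → F) := Pi.finite
  refine (det_iff_dick hE h2 _).1 ?_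
  rw [show ((negOrth R : (ι → F) ≃ₗ[F] (ι → F)) : (ι → F) →ₗ[F] (ι → F)) = (-1 : F) • LinearMap.id by
    refine LinearMap.ext fun v => ?_
    simp [negOrth_apply], LinearMap.det_smul, LinearMap.det_id, mul_one, hE.rank, pow_mul,
    neg_one_sq, one_pow]

include hf hE h2 in
/-- Without `-1` in `Ω` the special orthogonal image is inner. -/
theorem pso_eq_inn (hneg : negOrth R ∉ commutator (orth R)) :
    Cfsg.psoAut F f = Cfsg.Inn (Cfsg.POmega F f) := by
  haveI : Finite (ι → F) := Pi.finite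
  refine le_antisymm ?_ (inn_le_psoAut hf hE h2)
  rw [psoAut_eq hf hE h2]
  rintro _ ⟨g, hg, rfl⟩
  obtain ⟨k, rfl⟩ := hg.2
  have hd := (orth_mem_specialSim_iff hE k).1 hg
  rw [orth_mem_inn_iff hf hE k hd, H5.mem_commutator_iff hE.nondeg hE.std, hE.dick_hom,
    dick_negOrth_one hE h2, hd, one_mul, map_mul]
  have hs : spin R (negOrth R) = -1 := (Int.units_eq_one_or _).resolve_left fun h =>
    hneg ((H5.mem_commutator_iff hE.nondeg hE.std).2 ⟨dick_negOrth_one hE h2, h⟩)
  rcases Int.units_eq_one_or (spin R k) with h | h <;> rw [h, hs] <;> simp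

include hf hE h2 in
/-- With `-1` in `Ω`, inner classes of isometries are the trivial classes. -/
theorem orth_mem_inn_iff_spin (hneg : negOrth R ∈ commutator (orth R)) (k : orth R)
    (hd : dick k = 1) :
    indHom R hf (orthToSim R k) ∈ Cfsg.Inn (Cfsg.POmega F f) ↔ spin R k = 1 := by
  haveI : Finite (ι → F) := Pi.finite
  rw [orth_mem_inn_iff hf hE k hd, Subgroup.mul_mem_cancel_left _ hneg,
    H5.mem_commutator_iff hE.nondeg hE.std]
  simp [hd]

include hE in
theorem exists_special_spin_neg (h2 : (2 : F) ≠ 0) :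
    ∃ k : orth R, dick k = 1 ∧ spin R k = -1 := by
  haveI : Finite (ι → F) := Pi.finite
  obtain ⟨c, hc⟩ := H5.exists_not_isSquare h2
  obtain ⟨v, -, hd, hs⟩ := exists_refl_of_value hE (one_ne_zero (α := F))
  obtain ⟨w, -, hd', hs'⟩ := exists_refl_of_value hE (c := c) (fun h => hc (h ▸ IsSquare.zero))
  exact ⟨refl R v * refl R w, by rw [hE.dick_hom, hd, hd']; decide,
    by rw [map_mul, hs, hs', H5.sqc_one, H5.sqc_eq_neg_one_iff.2 hc, one_mul]⟩

include hf hE h2 in
/-- With `-1` in `Ω` the inner automorphisms have index two in the special orthogonal image. -/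
theorem relIndex_inn_pso (hneg : negOrth R ∈ commutator (orth R)) :
    (Cfsg.Inn (Cfsg.POmega F f)).relIndex (Cfsg.psoAut F f) = 2 := by
  haveI : Finite (ι → F) := Pi.finite
  set D : Subgroup (orth R) := (specialSim hE).comap (orthToSim R)
  have hD : D.map ((indHom R hf).comp (orthToSim R)) = Cfsg.psoAut F f := by
    rw [psoAut_eq hf hE h2, ← Subgroup.map_map, Subgroup.map_comap_eq,
      inf_eq_right.2 (by rw [specialSim]; exact inf_le_right : specialSim hE ≤ _)]
  let ψ : D →* ℤˣ := (spin R).comp D.subtype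
  have hψ : Function.Surjective ψ := by
    intro x
    rcases Int.units_eq_one_or x with rfl | rfl
    · exact ⟨1, map_one _⟩
    · obtain ⟨k, hk, hs⟩ := exists_special_spin_neg hE h2
      exact ⟨⟨k, (orth_mem_specialSim_iff hE k).2 hk⟩, hs⟩
  rw [← hD, relIndex_of_hom ((indHom R hf).comp (orthToSim R)) D ψ hψ
    (Cfsg.Inn (Cfsg.POmega F f)) fun k =>
    ((orth_mem_inn_iff_spin hf hE h2 hneg k.1 ((orth_mem_specialSim_iff hE k.1).1 k.2))).symm]
  simp

section quotient

include hf hE in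
theorem orth_class_congr {k l : orth R} (hd : dick k = dick l) (hs : spin R k = spin R l) :
    (indHom R hf (orthToSim R k))⁻¹ * indHom R hf (orthToSim R l) ∈ Cfsg.Inn (Cfsg.POmega F f) := by
  haveI : Finite (ι → F) := Pi.finite
  rw [← map_inv, ← map_mul, ← map_inv, ← map_mul, inn_eq hf]
  refine ⟨_, ⟨k⁻¹ * l, (H5.mem_commutator_iff hE.nondeg hE.std).2 ⟨?_, ?_⟩, rfl⟩, rfl⟩
  · have h := hE.dick_hom k (k⁻¹ * l)
    rw [mul_inv_cancel_left, ← hd] at h
    exact mul_eq_left.1 h.symm
  · rw [map_mul, map_inv, hs, inv_mul_cancel]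

include hf hE h2 in
/-- The data in the quotient of the similarities by the inner automorphisms when `-1 ∈ Ω`. -/
theorem class_data (hneg : negOrth R ∈ commutator (orth R)) (d : linSim R) (hdp : IsProper n d)
    (hdm : ¬ IsSquare (simMult d.1)) {N : Subgroup (MulAut (Cfsg.POmega F f))}
    (hN : N = Cfsg.Inn (Cfsg.POmega F f)) [N.Normal] :
    ∃ (v₁ : ι → F) (v₂ : ι → F), dick (refl R v₁ * refl R v₂) = 1 ∧
      let q := (QuotientGroup.mk' N).comp (indHom R hf)
      let p₁ := q (orthToSim R (refl R v₁))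
      let p₂ := q (orthToSim R (refl R v₂))
      let b := q d.1
      p₁ * p₁ = 1 ∧ p₁ * p₂ = p₂ * p₁ ∧ p₁ * p₂ ≠ 1 ∧ b * p₁ * b⁻¹ = p₂ ∧
        (p₁ * p₂) * (p₁ * p₂) = 1 ∧ b ≠ 1 ∧ b ≠ p₁ * p₂ ∧
        ∀ (k : orth R) (s : F), (∀ v, (d.1 : Equiv.Perm (ι → F)) ((d.1 : Equiv.Perm (ι → F)) v) =
            s • (k : (ι → F) ≃ₗ[F] (ι → F)) v) →
          (spin R k = 1 → b * b = 1) ∧ (spin R k = -1 → b * b = p₁ * p₂) := by
  haveI : Finite (ι → F) := Pi.finite
  haveI := hE.nontrivial
  obtain ⟨c, hc⟩ := H5.exists_not_isSquare h2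
  obtain ⟨v₁, hv1, hd1, hs1⟩ := exists_refl_of_value hE (one_ne_zero (α := F))
  obtain ⟨v₂, hv2, hd2, hs2⟩ := exists_refl_of_value hE (c := c) (fun h => hc (h ▸ IsSquare.zero))
  rw [H5.sqc_one] at hs1
  rw [H5.sqc_eq_neg_one_iff.2 hc] at hs2
  refine ⟨v₁, v₂, by rw [hE.dick_hom, hd1, hd2]; decide, ?_⟩
  intro q p₁ p₂ b
  have hq : ∀ g, q g = 1 ↔ indHom R hf g ∈ N := fun g => QuotientGroup.eq_one_iff _
  let π : orth R →* _ := q.comp (orthToSim R)
  have hπ : ∀ k l, dick k = dick l → spin R k = spin R l → π k = π l := fun k l hd hs => by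
    change q (orthToSim R k) = q (orthToSim R l)
    rw [← inv_mul_eq_one]
    change (QuotientGroup.mk' N _)⁻¹ * QuotientGroup.mk' N _ = 1
    rw [← map_inv, ← map_mul, QuotientGroup.mk'_apply, QuotientGroup.eq_one_iff, hN]
    exact orth_class_congr hf hE hd hs
  have hd12 : dick (refl R v₁ * refl R v₂) = 1 := by rw [hE.dick_hom, hd1, hd2]; decide
  have hs12 : spin R (refl R v₁ * refl R v₂) = -1 := by rw [map_mul, hs1, hs2, one_mul]
  have h12 : p₁ * p₂ = π (refl R v₁ * refl R v₂) := (map_mul π _ _).symm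
  have hne : p₁ * p₂ ≠ 1 := by
    rw [h12]
    intro h
    have h' := (hq _).1 h
    rw [hN, orth_mem_inn_iff_spin hf hE h2 hneg _ hd12, hs12] at h'
    exact absurd h' (by decide)
  have hbb : ∀ (k : orth R) (s : F), (∀ v, (d.1 : Equiv.Perm (ι → F))
      ((d.1 : Equiv.Perm (ι → F)) v) = s • (k : (ι → F) ≃ₗ[F] (ι → F)) v) →
      dick k = 1 ∧ b * b = π k := by
    intro k s hk
    refine ⟨(isProper_smul_iff hE (d * d) k (fun v => hk v)).1 ((isProper_mul_iff hE d d).2 Iff.rfl), ?_⟩
    change q d.1 * q d.1 = q (orthToSim R k)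
    rw [← map_mul]
    refine congrArg (QuotientGroup.mk' N) ((indHom_eq_iff' hf hE).2 ⟨s, fun v => ?_⟩)
    rw [orthToSim_apply]
    exact hk v
  have hbmem : ∀ k : orth R, b ≠ π k := fun k h => by
    have h' : q ((orthToSim R k)⁻¹ * d.1) = 1 := by
      rw [map_mul, map_inv]
      change (π k)⁻¹ * b = 1
      rw [h, inv_mul_cancel]
    rw [hq, hN, indHom_mem_inn_iff' hf hE] at h'
    obtain ⟨s, l, -, hl⟩ := h'
    refine hdm ⟨s, ?_⟩
    have h1 : ∀ v, (d.1 : Equiv.Perm (ι → F)) v = s • ((k * l : orth R) : (ι → F) ≃ₗ[F] (ι → F)) v := by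
      intro v
      have := hl v
      rw [Subgroup.coe_mul, Equiv.Perm.mul_apply] at this
      rw [orth_mul_apply, ← map_smul, ← this, ← orthToSim_apply]
      exact ((orthToSim R k : Equiv.Perm (ι → F)).apply_symm_apply _).symm
    rw [(mult_of_smul hE d _ h1).1, sq]
  refine ⟨?_, ?_, hne, ?_, ?_, ?_, ?_, fun k s hk => ⟨fun h => ?_, fun h => ?_⟩⟩
  · exact ((map_mul π _ _).symm.trans (hπ _ 1 (by rw [hE.dick_hom, hd1, H5.dick_one]; decide)
      (by rw [map_mul, hs1, map_one, one_mul]))).trans (map_one π)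
  · exact ((map_mul π _ _).symm.trans (hπ _ _ (by rw [hE.dick_hom, hE.dick_hom, mul_comm])
      (by rw [map_mul, map_mul, mul_comm]))).trans (map_mul π _ _)
  · change q d.1 * q (orthToSim R (refl R v₁)) * (q d.1)⁻¹ = π (refl R v₂)
    rw [← map_inv, ← map_mul, ← map_mul, orthToSim_simConj]
    refine hπ _ _ ?_ ?_
    all_goals rw [simConj_refl (isSemiSim d.1)]
    · have hw : R (simEquiv d.1 v₁) ≠ 0 := by
        rw [(isSemiSim d.1).map_app, hv1, map_one, mul_one]; exact (isSemiSim d.1).ne_zero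
      rw [H5.dick_refl hE.nondeg hw, hd2]
    · have hw : R (simEquiv d.1 v₁) = simMult d.1 := by
        rw [(isSemiSim d.1).map_app, hv1, map_one, mul_one]
      rw [H5.spin_refl (by rw [hw]; exact (isSemiSim d.1).ne_zero), hw,
        H5.sqc_eq_neg_one_iff.2 hdm, hs2]
  · rw [h12, ← map_mul]
    exact (hπ _ 1 (by rw [hE.dick_hom, hd12, H5.dick_one, one_mul])
      (by rw [map_mul, hs12, map_one]; decide)).trans (map_one π)
  · rw [← map_one π]; exact hbmem 1
  · rw [h12]; exact hbmem _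
  · rw [(hbb k s hk).2]
    exact (hπ k 1 (by rw [(hbb k s hk).1, H5.dick_one]) (by rw [h, map_one])).trans (map_one π)
  · rw [(hbb k s hk).2, h12]
    exact hπ _ _ (by rw [(hbb k s hk).1, hd12]) (by rw [h, hs12])

include hf hE h2 in
/-- Without `-1` in `Ω` the conformal image modulo the inner one is a Klein four group. -/
theorem pgo_mod_inn_klein (hmult : ∀ c : F, c ≠ 0 → c ∈ similMults R)
    (hneg : negOrth R ∉ commutator (orth R)) :
    ∃ φ : Cfsg.pgoAut F f →* Multiplicative (ZMod 2 × ZMod 2), Function.Surjective φ ∧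
      φ.ker = (Cfsg.Inn (Cfsg.POmega F f)).subgroupOf (Cfsg.pgoAut F f) := by
  obtain ⟨φ, hφ⟩ := (pgo_mod_pso hf hE h2 hmult).1
  exact ⟨φ, by rwa [pso_eq_inn hf hE h2 hneg] at hφ⟩

include hf hE h2 in
/-- Without `-1` in `Ω` the proper image modulo the inner one has order two. -/
theorem proper_mod_inn_two (hmult : ∀ c : F, c ≠ 0 → c ∈ similMults R)
    (hneg : negOrth R ∉ commutator (orth R)) :
    ∃ φ : properImage hf hE →* Multiplicative (ZMod 2), Function.Surjective φ ∧
      φ.ker = (Cfsg.Inn (Cfsg.POmega F f)).subgroupOf (properImage hf hE) := by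
  obtain ⟨φ, hφ⟩ := (proper_mod_pso hf hE h2 hmult).1
  exact ⟨φ, by rwa [pso_eq_inn hf hE h2 hneg] at hφ⟩

include hf hE h2 in
/-- With `-1` in `Ω` the conformal image modulo the inner one is dihedral of order eight. -/
theorem pgo_mod_inn_dihedral (hmult : ∀ c : F, c ≠ 0 → c ∈ similMults R)
    (hneg : negOrth R ∈ commutator (orth R)) :
    ∃ φ : Cfsg.pgoAut F f →* DihedralGroup 4, Function.Surjective φ ∧
      φ.ker = (Cfsg.Inn (Cfsg.POmega F f)).subgroupOf (Cfsg.pgoAut F f) := by
  haveI : Finite (ι → F) := Pi.finite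
  haveI := hE.nontrivial
  haveI := inn_normal (Cfsg.POmega F f)
  obtain ⟨d, hdp, hdm⟩ := exists_proper_nonsquare hE h2 hmult
  obtain ⟨v₁, v₂, -, h11, hcomm, hne, hconj, h1212, -, -, hsq⟩ := class_data hf hE h2 hneg d hdp hdm rfl
  obtain ⟨k, hk, -⟩ := exists_sq_isometry (isSemiSim d.1).ne_zero (linSimEquiv d) (linSim_app R d)
  set q := (QuotientGroup.mk' (Cfsg.Inn (Cfsg.POmega F f))).comp (indHom R hf)
  set p₁ := q (orthToSim R (refl R v₁))
  set p₂ := q (orthToSim R (refl R v₂))
  set b := q d.1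
  have hbb : b * b = 1 ∨ b * b = p₁ * p₂ :=
    (Int.units_eq_one_or (spin R k)).imp (hsq k _ (fun v => hk v)).1 (hsq k _ (fun v => hk v)).2
  set P := (Cfsg.pgoAut F f).map (QuotientGroup.mk' (Cfsg.Inn (Cfsg.POmega F f)))
  have hmem : ∀ g : linSim R, q g.1 ∈ P := fun g =>
    ⟨_, by rw [pgoAut_eq hf hE]; exact ⟨g.1, g.2, rfl⟩, rfl⟩
  have hp1 : p₁ ∈ P := hmem ⟨_, orthToSim_mem R (refl R v₁)⟩
  have hb : b ∈ P := hmem d
  have hcard : Nat.card P = 8 := by
    rw [card_image_mk, ← Subgroup.relIndex_mul_relIndex _ _ _ (inn_le_psoAut hf hE h2)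
      (by
        rw [pgoAut_eq hf hE, psoAut_eq hf hE h2]
        exact Subgroup.map_mono (by
          rw [specialSim]; exact inf_le_left.trans (properSim_le hE))),
      relIndex_inn_pso hf hE h2 hneg, (pgo_mod_pso hf hE h2 hmult).2]
  obtain ⟨e⟩ := dihedral_of_relations P hcard hp1 hb h11 hcomm hne hconj h1212 hbb
  exact exists_hom_of_image _ _ e.symm

include hf hE h2 in
/-- With `-1` in `Ω` the proper image modulo the inner one has order four; its shape is decided
by the spinor norm belonging to the square of a proper similarity with non-square multiplier. -/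
theorem proper_mod_inn_four (hmult : ∀ c : F, c ≠ 0 → c ∈ similMults R)
    (hneg : negOrth R ∈ commutator (orth R)) (d : linSim R) (hdp : IsProper n d)
    (hdm : ¬ IsSquare (simMult d.1)) (k : orth R) (s : F)
    (hk : ∀ v, (d.1 : Equiv.Perm (ι → F)) ((d.1 : Equiv.Perm (ι → F)) v) =
      s • (k : (ι → F) ≃ₗ[F] (ι → F)) v) :
    (spin R k = -1 → ∃ φ : properImage hf hE →* Multiplicative (ZMod 4), Function.Surjective φ ∧
      φ.ker = (Cfsg.Inn (Cfsg.POmega F f)).subgroupOf (properImage hf hE)) ∧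
    (spin R k = 1 → ∃ φ : properImage hf hE →* Multiplicative (ZMod 2 × ZMod 2),
      Function.Surjective φ ∧
        φ.ker = (Cfsg.Inn (Cfsg.POmega F f)).subgroupOf (properImage hf hE)) := by
  haveI : Finite (ι → F) := Pi.finite
  haveI := inn_normal (Cfsg.POmega F f)
  obtain ⟨v₁, v₂, hd12, -, -, hne, -, h1212, hb1, hb12, hsq⟩ := class_data hf hE h2 hneg d hdp hdm rfl
  set q := (QuotientGroup.mk' (Cfsg.Inn (Cfsg.POmega F f))).comp (indHom R hf)
  set p₁ := q (orthToSim R (refl R v₁))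
  set p₂ := q (orthToSim R (refl R v₂))
  set b := q d.1
  set P := (properImage hf hE).map (QuotientGroup.mk' (Cfsg.Inn (Cfsg.POmega F f)))
  have hb : b ∈ P := ⟨_, ⟨d.1, (mem_properSim hE).2 hdp, rfl⟩, rfl⟩
  have h12 : p₁ * p₂ ∈ P := by
    rw [← map_mul q, ← map_mul (orthToSim R)]
    exact ⟨_, ⟨_, (orthToSim_mem_properSim_iff hE _).2 hd12, rfl⟩, rfl⟩
  have hcard : Nat.card P = 4 := by
    rw [card_image_mk, ← Subgroup.relIndex_mul_relIndex _ _ _ (inn_le_psoAut hf hE h2)
      (by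
        rw [psoAut_eq hf hE h2, properImage]
        exact Subgroup.map_mono (by rw [specialSim]; exact inf_le_left)),
      relIndex_inn_pso hf hE h2 hneg, (proper_mod_pso hf hE h2 hmult).2]
  constructor
  · intro hs
    obtain ⟨e⟩ := nonempty_cyclic_four hcard ⟨b, hb⟩ (fun h => hne (by
      have h' : b ^ 2 = 1 := by simpa only [SubmonoidClass.coe_pow, Subgroup.coe_one] using congrArg Subtype.val h
      rwa [sq, (hsq k s hk).2 hs] at h'))
    exact exists_hom_of_image _ _ e
  · intro hs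
    obtain ⟨e⟩ := nonempty_klein hcard ⟨b, hb⟩ ⟨p₁ * p₂, h12⟩
      (Subtype.ext (by
        simp only [SubmonoidClass.coe_pow, Subgroup.coe_one]
        rw [sq, (hsq k s hk).1 hs]))
      (Subtype.ext (by
        simp only [SubmonoidClass.coe_pow, Subgroup.coe_one]
        rw [sq, h1212]))
      (fun h => hb1 (congrArg Subtype.val h)) (fun h => hne (congrArg Subtype.val h))
      (fun h => hb12 (congrArg Subtype.val h))
    exact exists_hom_of_image _ _ e

end quotient

end Cfsg.Agent.H62.Conformal
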