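import Cfsg.Agent.H62.ConformalPlusMinus
import Cfsg.Agent.H62.InvolutiveSimilarity

/-!
How the class of an involutory graph automorphism of `PΩ^±` splits under the inner automorphisms,
in odd characteristic.
-/

set_option autoImplicit false
set_option maxHeartbeats 400000

namespace Cfsg.Agent.H62.GraphSplit

open QuadraticMap hiding sq
open Module
open scoped Matrix
open Cfsg.Agent.H4
open Cfsg.Agent.H62.Conformal Cfsg.Agent.H62.InvSim
open Cfsg.Agent.H5 (orth refl refl_apply dick spin sqc orth_map orth_ext orth_mul_apply)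

variable {F : Type*} [Field F] [Fintype F] {ι : Type} [Fintype ι] [DecidableEq ι]
  {R : QuadraticForm F (ι → F)} {f : (ι → F) → F} {n : ℕ} (hf : ⇑R = f) (hE : EvenForm R n)
  (h2 : (2 : F) ≠ 0)

include hE in
/-- Conjugation by a similarity moves the spinor norm of an improper isometry by the square class
of the multiplier. -/
theorem sign_simConj_lin (d : linSim R) (k : orth R) :
    dick (simConj (isSemiSim d.1) k) = dick k ∧
      spin R (simConj (isSemiSim d.1) k) =
        spin R k * (if dick k = 1 then 1 else sqc (simMult d.1)) := by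
  haveI : Finite (ι → F) := Pi.finite
  haveI := hE.nontrivial
  have hk : k ∈ H5.reflGroup R := by rw [H5.reflGroup_eq_top hE.nondeg hE.std]; trivial
  refine H5.reflGroup_induction (p := fun k => dick (simConj (isSemiSim d.1) k) = dick k ∧
    spin R (simConj (isSemiSim d.1) k) = spin R k * (if dick k = 1 then 1 else sqc (simMult d.1)))
    ?_ ?_ hk
  · simp [H5.dick_one]
  · intro v l hv _ ih
    have hgv : R (simEquiv d.1 v) = simMult d.1 * R v := linSim_app R d v
    have hc := (isSemiSim d.1).ne_zero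
    have hgv0 : R (simEquiv d.1 v) ≠ 0 := by rw [hgv]; exact mul_ne_zero hc hv
    rw [map_mul, simConj_refl (isSemiSim d.1)]
    refine ⟨by rw [H5.dick_refl_mul hE.nondeg hgv0, H5.dick_refl_mul hE.nondeg hv, ih.1], ?_⟩
    rw [map_mul, map_mul, ih.2, H5.spin_refl hgv0, H5.spin_refl hv, hgv, H5.sqc_mul hc hv,
      H5.dick_refl_mul hE.nondeg hv]
    rcases Int.units_eq_one_or (dick l) with h | h <;>
      rcases Int.units_eq_one_or (sqc (simMult d.1)) with h' | h' <;>
      rcases Int.units_eq_one_or (sqc (R v)) with h'' | h'' <;>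
      rcases Int.units_eq_one_or (spin R l) with h3 | h3 <;>
      rw [h, h', h'', h3] <;> decide

include hf hE h2 in
/-- With `-1` in `Ω`, no similarity with non-square multiplier centralises an improper one. -/
theorem not_commute_of_nonsquare (hneg : negOrth R ∈ commutator (orth R)) (g d : linSim R)
    (hg : ¬ IsProper n g) (hd : IsProper n d) (hdm : ¬ IsSquare (simMult d.1))
    (hc : indHom R hf d.1 * indHom R hf g.1 = indHom R hf g.1 * indHom R hf d.1) : False := by
  haveI : Finite (ι → F) := Pi.finite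
  haveI := hE.nontrivial
  obtain ⟨e, he, hem, hce⟩ : ∃ e : linSim R, ¬ IsProper n e ∧ IsSquare (simMult e.1) ∧
      indHom R hf d.1 * indHom R hf e.1 = indHom R hf e.1 * indHom R hf d.1 := by
    by_cases hs : IsSquare (simMult g.1)
    · exact ⟨g, hg, hs, hc⟩
    · refine ⟨d * g, fun h => hg (((isProper_mul_iff hE d g).1 h).1 hd), ?_, ?_⟩
      · rw [← H5.sqc_eq_one_iff, simMult_linSim_mul hE,
          H5.sqc_mul (isSemiSim d.1).ne_zero (isSemiSim g.1).ne_zero,
          H5.sqc_eq_neg_one_iff.2 hdm, H5.sqc_eq_neg_one_iff.2 hs]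
        decide
      · rw [Subgroup.coe_mul, map_mul, mul_assoc, ← hc]
  obtain ⟨k, s, hk⟩ := exists_smul_orth_of_isSquare hE e hem
  have hkd : dick k = -1 :=
    (Int.units_eq_one_or _).resolve_left fun h => he ((isProper_smul_iff hE e k hk).2 h)
  have hek : indHom R hf e.1 = indHom R hf (orthToSim R k) :=
    (indHom_eq_iff' hf hE).2 ⟨s, fun v => by rw [orthToSim_apply]; exact hk v⟩
  rw [hek] at hce
  have h1 : indHom R hf (orthToSim R (simConj (isSemiSim d.1) k)) = indHom R hf (orthToSim R k) := by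
    rw [← orthToSim_simConj, map_mul, map_mul, map_inv, hce, mul_inv_cancel_right]
  obtain ⟨hd1, hs1⟩ := sign_simConj_lin hE d k
  rw [hkd, if_neg (by decide), H5.sqc_eq_neg_one_iff.2 hdm] at hs1
  set k' := simConj (isSemiSim d.1) k with hk'
  have h3 : indHom R hf (orthToSim R (k⁻¹ * k')) ∈ Cfsg.Inn (Cfsg.POmega F f) := by
    rw [map_mul, map_mul, map_inv, map_inv, h1, inv_mul_cancel]
    exact one_mem _
  have hd3 : dick (k⁻¹ * k') = 1 := by
    have h := hE.dick_hom k (k⁻¹ * k')
    rw [mul_inv_cancel_left, hd1] at h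
    exact mul_eq_left.1 h.symm
  rw [orth_mem_inn_iff_spin hf hE h2 hneg _ hd3, map_mul, map_inv, hs1, inv_mul_cancel_left] at h3
  exact absurd h3 (by decide)

include hf hE h2 in
/-- In even degree no proper similarity with non-square multiplier centralises an improper one with
scalar square. -/
theorem not_commute_of_even (hn : Even n) (g d : linSim R) (hg : ¬ IsProper n g) {l : F}
    (hl : ∀ v, (g.1 : Equiv.Perm (ι → F)) ((g.1 : Equiv.Perm (ι → F)) v) = l • v)
    (hdm : ¬ IsSquare (simMult d.1))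
    (hc : indHom R hf d.1 * indHom R hf g.1 = indHom R hf g.1 * indHom R hf d.1) : False := by
  haveI : Finite (ι → F) := Pi.finite
  haveI := hE.nontrivial
  rcases improper_shape h2 hE g hg hl with ⟨k, s, hk, hkk, hkd⟩ | ⟨-, -, hodd⟩
  swap
  · exact Nat.not_even_iff_odd.2 hodd hn
  have hek : indHom R hf g.1 = indHom R hf (orthToSim R k) :=
    (indHom_eq_iff' hf hE).2 ⟨s, fun v => by rw [orthToSim_apply]; exact hk v⟩
  rw [hek, ← map_mul, ← map_mul, indHom_eq_iff' hf hE] at hc
  obtain ⟨ε, hε⟩ := hc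
  set L := linSimEquiv d
  set K := (k : (ι → F) ≃ₗ[F] (ι → F))
  have hcomm : ∀ v, L (K v) = ε • K (L v) := hε
  have hee : ε * ε = 1 := by
    obtain ⟨v, hv⟩ := exists_ne (0 : ι → F)
    have h1 := hcomm (K v)
    rw [hkk, hcomm, map_smul, hkk, smul_smul] at h1
    have hLv : L v ≠ 0 := fun h => hv (L.injective (h.trans (map_zero L).symm))
    exact (smul_left_injective F hLv (((one_smul F (L v)).trans h1) : (1 : F) • L v = _)).symm
  obtain ⟨hdim, hdet⟩ := det_involution h2 (K : (ι → F) →ₗ[F] (ι → F)) hkk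
  rw [hE.det_orth, hkd] at hdet
  rw [hE.rank] at hdim
  set W := LinearMap.ker ((K : (ι → F) →ₗ[F] (ι → F)) - 1)
  set U := LinearMap.ker ((K : (ι → F) →ₗ[F] (ι → F)) + 1)
  have hW : ∀ v, v ∈ W ↔ K v = (1 : F) • v := fun v => by simp [W, sub_eq_zero]
  have hU : ∀ v, v ∈ U ↔ K v = (-1 : F) • v := fun v => by simp [U, add_eq_zero_iff_eq_neg]
  have hUodd : Odd (finrank F U) := by
    rcases Nat.even_or_odd (finrank F U) with h | h
    · exfalso
      rw [h.neg_one_pow] at hdet
      simp only [Units.val_neg, Units.val_one, Int.cast_neg, Int.cast_one] at hdet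
      exact h2 (by linear_combination -hdet)
    · exact h
  obtain ⟨i, hi⟩ := hUodd
  rcases mul_self_eq_one_iff.1 hee with rfl | rfl
  · -- the eigenspace is preserved and has odd dimension
    refine hdm ?_
    have hmap : ∀ v ∈ W, L v ∈ W := fun v hv => by
      rw [hW, one_smul] at hv ⊢
      have h1 := hcomm v
      rw [hv, one_smul] at h1
      exact h1.symm
    have hWi : Function.Injective ((L : (ι → F) →ₗ[F] (ι → F)).restrict hmap) := fun x y h =>
      Subtype.ext (L.injective (congrArg Subtype.val h :))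
    let δ : W ≃ₗ[F] W := LinearEquiv.ofBijective _ ⟨hWi, LinearMap.injective_iff_surjective.1 hWi⟩
    have h3 := det_sq_of_similar (Q := R.restrict W) (c := simMult d.1)
      (H5.restrict_nondegenerate (eigen_inf_perp h2 hE.nondeg k hkk (Or.inl rfl) hW)) δ
      (fun v => linSim_app R d v.1)
    obtain ⟨j, hj⟩ : ∃ j, finrank F W = 2 * j + 1 := ⟨n - i - 1, by omega⟩
    rw [hj, pow_succ (simMult (d.1)) (2 * j), pow_mul'] at h3
    have hc0 := (isSemiSim d.1).ne_zero
    refine ⟨LinearMap.det (δ : W →ₗ[F] W) / simMult d.1 ^ j, ?_⟩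
    field_simp
    linear_combination -h3
  · -- the eigenspaces would have equal dimension
    have h1 : finrank F (U.map (L : (ι → F) →ₗ[F] (ι → F))) ≤ finrank F W := by
      refine Submodule.finrank_mono ?_
      rintro _ ⟨v, hv, rfl⟩
      rw [SetLike.mem_coe, hU] at hv
      rw [hW, one_smul]
      have h := hcomm v
      rw [hv, neg_one_smul, neg_one_smul, map_neg] at h
      exact (neg_injective h).symm
    have h3 : finrank F (W.map (L : (ι → F) →ₗ[F] (ι → F))) ≤ finrank F U := by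
      refine Submodule.finrank_mono ?_
      rintro _ ⟨v, hv, rfl⟩
      rw [SetLike.mem_coe, hW, one_smul] at hv
      rw [hU, neg_one_smul]
      have h := hcomm v
      rw [hv, neg_one_smul] at h
      exact eq_neg_iff_add_eq_zero.2 (by rw [add_comm]; exact eq_neg_iff_add_eq_zero.1 h)
    rw [LinearEquiv.finrank_map_eq] at h1 h3
    obtain ⟨j, hj⟩ := hn
    omega

include hf hE h2 in
/-- The split number of an improper similarity whose square is a scalar. -/
theorem split_count (hmult : ∀ c : F, c ≠ 0 → c ∈ similMults R) (g : linSim R)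
    (hg : ¬ IsProper n g) {l : F}
    (hl : ∀ v, (g.1 : Equiv.Perm (ι → F)) ((g.1 : Equiv.Perm (ι → F)) v) = l • v) :
    (Cfsg.splitClassCount (properImage hf hE) (Cfsg.Inn (Cfsg.POmega F f)) (indHom R hf g.1) = 1 ∨
      Cfsg.splitClassCount (properImage hf hE) (Cfsg.Inn (Cfsg.POmega F f)) (indHom R hf g.1) = 2) ∧
    (negOrth R ∈ commutator (orth R) ∨ Even n →
      Cfsg.splitClassCount (properImage hf hE) (Cfsg.Inn (Cfsg.POmega F f))
        (indHom R hf g.1) = 2) := by
  haveI : Finite (ι → F) := Pi.finite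
  haveI := hE.nontrivial
  haveI := inn_normal (Cfsg.POmega F f)
  set G := properImage hf hE with hG
  set N := Cfsg.Inn (Cfsg.POmega F f) with hN
  have hNpso : N ≤ Cfsg.psoAut F f := inn_le_psoAut hf hE h2
  have hpsoG : Cfsg.psoAut F f ≤ G := by
    rw [psoAut_eq hf hE h2, hG, properImage]
    exact Subgroup.map_mono (by rw [specialSim]; exact inf_le_left)
  have h22 := (proper_mod_pso hf hE h2 hmult).2
  rw [splitClassCount_eq_relIndex (hNpso.trans hpsoG)]
  set C := G ⊓ Subgroup.centralizer {indHom R hf g.1}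
  -- centralising elements lie in the special image
  have hCpso : negOrth R ∈ commutator (orth R) ∨ Even n → C ≤ Cfsg.psoAut F f := by
    intro h x hx
    obtain ⟨hxG, hxc⟩ := hx
    rw [hG, properImage] at hxG
    obtain ⟨d, hd, rfl⟩ := hxG
    rw [SetLike.mem_coe] at hd
    have hc : indHom R hf d * indHom R hf g.1 = indHom R hf g.1 * indHom R hf d :=
      (Subgroup.mem_centralizer_iff.1 hxc _ rfl).symm
    set d' : linSim R := ⟨d, properSim_le hE hd⟩
    have hdp : IsProper n d' := (mem_properSim hE).1 hd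
    refine (mem_psoAut_iff hE hf h2 d').2 ⟨hdp, ?_⟩
    by_contra hdm
    rcases h with h | h
    · exact not_commute_of_nonsquare hf hE h2 h g d' hg hdp hdm hc
    · exact not_commute_of_even hf hE h2 h g d' hg hl hdm hc
  by_cases hneg : negOrth R ∈ commutator (orth R)
  · suffices h : N ⊔ C = Cfsg.psoAut F f by
      rw [h, h22]
      exact ⟨Or.inr rfl, fun _ => rfl⟩
    refine le_antisymm (sup_le hNpso (hCpso (Or.inl hneg))) ?_
    obtain ⟨r, hrd, hrs, hr⟩ : ∃ r : orth R, dick r = 1 ∧ spin R r = -1 ∧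
        indHom R hf (orthToSim R r) * indHom R hf g.1 = indHom R hf g.1 * indHom R hf (orthToSim R r) := by
      rcases improper_shape h2 hE g hg hl with ⟨k, s, hk, hkk, -⟩ | ⟨hls, hm, -⟩
      · obtain ⟨r, hrd, hrs, hr⟩ := exists_comm_of_involution h2 hE k hkk
        refine ⟨r, hrd, hrs, ?_⟩
        rw [← map_mul, ← map_mul]
        congr 1
        refine Subtype.ext (Equiv.ext fun v => ?_)
        simp only [Subgroup.coe_mul, Equiv.Perm.mul_apply, orthToSim_apply, hk, map_smul, hr]
      · obtain ⟨r, hrd, hrs, hr⟩ := exists_comm_of_nonsquare h2 hE g hls hm hl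
        refine ⟨r, hrd, hrs, ?_⟩
        rw [← map_mul, ← map_mul]
        congr 1
        exact Subtype.ext (Equiv.ext fun v => hr v)
    have hrC : indHom R hf (orthToSim R r) ∈ C :=
      ⟨⟨_, (orthToSim_mem_properSim_iff hE r).2 hrd, rfl⟩,
        Subgroup.mem_centralizer_iff.2 fun y hy => by rw [Set.mem_singleton_iff.1 hy, hr]⟩
    rw [psoAut_eq hf hE h2]
    rintro _ ⟨x, hx, rfl⟩
    obtain ⟨k, rfl⟩ := hx.2
    have hkd := (orth_mem_specialSim_iff hE k).1 hx
    rcases Int.units_eq_one_or (spin R k) with hs | hs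
    · exact Subgroup.mem_sup_left ((orth_mem_inn_iff hf hE k hkd).2 (Or.inl hs))
    · have h := orth_class_congr hf hE (k := r) (l := k) (by rw [hrd, hkd]) (by rw [hrs, hs])
      rw [← mul_inv_cancel_left (indHom R hf (orthToSim R r)) (indHom R hf (orthToSim R k))]
      exact mul_mem (Subgroup.mem_sup_right hrC) (Subgroup.mem_sup_left h)
  · have hpso := pso_eq_inn hf hE h2 hneg
    rw [← hN] at hpso
    rw [hpso] at h22
    refine ⟨?_, fun h => ?_⟩
    · have h1 := Subgroup.relIndex_mul_relIndex N (N ⊔ C) G le_sup_left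
        (sup_le (hNpso.trans hpsoG) inf_le_left)
      rw [h22] at h1
      exact (Nat.dvd_prime Nat.prime_two).1 ⟨_, by rw [← h1, mul_comm]⟩
    · rw [sup_eq_left.2 (hpso ▸ hCpso h), h22]

/-- The involutory automorphism comes from a similarity with scalar square. -/
theorem exists_square_scalar {R : QuadraticForm F (ι → F)} {f : (ι → F) → F} {n : ℕ} (hf : ⇑R = f)
    (hE : EvenForm R n) (g : semiSimGroup R) (h : orderOf (indHom R hf g) = 2) :
    ∃ l : F, ∀ v, (g : Equiv.Perm (ι → F)) ((g : Equiv.Perm (ι → F)) v) = l • v := by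
  have h1 : indHom R hf (g * g) = 1 := by
    rw [map_mul, ← sq, ← h, pow_orderOf_eq_one]
  obtain ⟨l, hl⟩ := (indHom_eq_one_iff' hf hE _).1 h1
  exact ⟨l, hl⟩

theorem split_plus {m : ℕ} (hodd : Odd (Fintype.card F)) (hm : 4 ≤ m)
    (γ : MulAut (Cfsg.POmega F (Cfsg.quadFormPlus m F)))
    (hγ : Cfsg.IsSimilarityGraphAutPOmegaPlus m γ) (hγ2 : orderOf γ = 2) :
    (Cfsg.splitClassCount (Cfsg.inndiagPOmegaPlus m F) (Cfsg.Inn (Cfsg.POmega F (Cfsg.quadFormPlus m F))) γ = 1 ∨
      Cfsg.splitClassCount (Cfsg.inndiagPOmegaPlus m F) (Cfsg.Inn (Cfsg.POmega F (Cfsg.quadFormPlus m F))) γ = 2) ∧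
    (¬ (Odd m ∧ Fintype.card F % 4 = 3) →
      Cfsg.splitClassCount (Cfsg.inndiagPOmegaPlus m F) (Cfsg.Inn (Cfsg.POmega F (Cfsg.quadFormPlus m F))) γ = 2) := by
  haveI : Finite (Fin m ⊕ Fin m → F) := Pi.finite
  have h2 := Conformal.two_ne_zero_of_odd_card hodd
  have hE := evenForm_qPlus (F := F) (show 3 ≤ m by omega)
  haveI := hE.nontrivial
  obtain ⟨M, ⟨c, hc⟩, hM, hβ⟩ := hγ
  obtain ⟨g, hg, hgs⟩ := exists_sim_of_pair (qPlus m F) (coe_qPlus _) (M := M)
    (σ := RingEquiv.refl F) ⟨c, hc⟩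
  obtain rfl : γ = indHom (qPlus m F) (coe_qPlus m) g := (induced_iff _ (coe_qPlus _) g M _ hg γ).1 hβ
  obtain ⟨W, hW, hWr⟩ := qPlus_singular (F := F) m
  have hgp : ¬ IsProper m (⟨g, hgs⟩ : linSim (qPlus m F)) := fun h =>
    hM ((preserves_iff_proper (coe_qPlus _) hE ⟨W, hWr, hW⟩ ⟨g, hgs⟩ _ hg).2 h)
  obtain ⟨l, hl⟩ := exists_square_scalar _ hE g hγ2
  rw [inndiag_plus_eq' (show 3 ≤ m by omega)]
  obtain ⟨h1, h3⟩ := split_count (coe_qPlus m) hE h2 hmult_plus ⟨g, hgs⟩ hgp hl
  exact ⟨h1, fun h => h3 (Or.inl ((negOrth_plus_iff h2 (by omega)).2 h))⟩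

section minus

variable {m : ℕ} {a b : F}
  (hab : ∀ z₁ z₂ : F, z₁ ^ 2 + a * z₁ * z₂ + b * z₂ ^ 2 = 0 → z₁ = 0 ∧ z₂ = 0)

include hab in
/-- An involutory automorphism of a minus group has no field part. -/
theorem sigma_trivial (h2 : (2 : F) ≠ 0) (hm : 3 ≤ m) (g : semiSimGroup (qMinus m F a b)) {l : F}
    (hl : ∀ v, (g : Equiv.Perm _) ((g : Equiv.Perm ((Fin m ⊕ Fin m) ⊕ Fin 2 → F)) v) = l • v) :
    simSigma g = 1 := by
  haveI : Finite ((Fin m ⊕ Fin m) ⊕ Fin 2 → F) := Pi.finite
  have hE := evenForm_qMinus (F := F) (m := m) (by omega) (disc_ne_zero hab)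
  haveI := hE.nontrivial
  set σ := simSigma g with hσ
  by_contra hne
  have hσσ : ∀ t, σ (σ t) = t := fun t => by
    obtain ⟨v, hv⟩ := exists_ne (0 : (Fin m ⊕ Fin m) ⊕ Fin 2 → F)
    have h1 := (isSemiSim g).map_smul t v
    have h3 : (g : Equiv.Perm _) ((g : Equiv.Perm _) (t • v)) =
        σ (σ t) • (g : Equiv.Perm _) ((g : Equiv.Perm _) v) := by
      rw [show (g : Equiv.Perm _) (t • v) = σ t • (g : Equiv.Perm _) v from h1]
      exact (isSemiSim g).map_smul _ _
    rw [hl, hl, smul_smul, smul_smul, mul_comm l] at h3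
    have hl0 : l ≠ 0 := fun h0 => hv ((g : Equiv.Perm _).injective ((g : Equiv.Perm _).injective (by
      rw [hl, hl, h0, zero_smul, zero_smul])))
    exact (mul_right_cancel₀ hl0 (smul_left_injective F hv h3)).symm
  have hord : orderOf σ = 2 := orderOf_eq_prime (RingEquiv.ext fun t => by
    rw [sq, RingAut.mul_apply, hσσ]; rfl) hne
  -- fixed elements are squares
  obtain ⟨K, hK, hcard⟩ := exists_fixed_embedding σ
  haveI := Fintype.ofFinite K
  rw [hord, Nat.card_eq_fintype_card] at hcard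
  have hfix : ∀ y, σ y = y → IsSquare y := fun y hy => by
    obtain ⟨z, rfl⟩ := (hK y).1 hy
    exact isSquare_map_of_two hcard z
  have hns : ¬ IsSquare (4 * b - a ^ 2) := fun h => (minus_isSquare_disc hab h2).1 h
    (hfix _ (by rw [map_neg, map_one]))
  -- the semilinear determinant identity
  set B := Pi.basisFun F ((Fin m ⊕ Fin m) ⊕ Fin 2)
  set D := (gram (qMinus m F a b) B).det with hD
  have hD0 : D ≠ 0 := det_gram_ne_zero hE.nondeg B
  have hDns : ¬ IsSquare D := by
    rw [hD, det_gram_qMinus]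
    rintro ⟨r, hr⟩
    obtain ⟨s, hs⟩ : IsSquare ((-1 : F) ^ m) := by
      rcases Nat.even_or_odd m with he | ho
      · rw [he.neg_one_pow]; exact IsSquare.one
      · rw [ho.neg_one_pow]; exact hfix _ (by rw [map_neg, map_one])
    refine hns ⟨r / s, ?_⟩
    have hs0 : s ≠ 0 := fun h => pow_ne_zero m (neg_ne_zero.2 (one_ne_zero (α := F))) (by rw [hs, h, mul_zero])
    rw [hs] at hr
    field_simp
    linear_combination hr
  set c := simMult g with hc
  have hc0 : c ≠ 0 := (isSemiSim g).ne_zero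
  let M : Matrix ((Fin m ⊕ Fin m) ⊕ Fin 2) ((Fin m ⊕ Fin m) ⊕ Fin 2) F :=
    Matrix.of fun i j => (g : Equiv.Perm _) (B j) i
  have hM : ∀ v, (g : Equiv.Perm _) v = M *ᵥ (fun i => σ (v i)) := fun v => by
    have hv : v = ∑ j, v j • B j := by
      funext i
      simp [B, Pi.basisFun_apply, Finset.sum_apply, Pi.single_apply]
    conv_lhs => rw [hv, ← simEquiv_apply, map_sum]
    funext i
    simp only [Finset.sum_apply, Matrix.mulVec, dotProduct, M, Matrix.of_apply]
    refine Finset.sum_congr rfl fun j _ => ?_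
    rw [(isSemiSim g).map_smul, Pi.smul_apply, smul_eq_mul, simEquiv_apply, mul_comm]
  have hMM : M * M.map σ = l • (1 : Matrix ((Fin m ⊕ Fin m) ⊕ Fin 2) ((Fin m ⊕ Fin m) ⊕ Fin 2) F) := by
    ext i j
    have h1 := congrFun (hl (B j)) i
    rw [hM ((g : Equiv.Perm _) (B j))] at h1
    simpa [Matrix.mul_apply, Matrix.mulVec, dotProduct, M, B, Pi.basisFun_apply, Matrix.one_apply,
      Pi.single_apply] using h1
  have hgram : M.transpose * gram (qMinus m F a b) B * M = c • (gram (qMinus m F a b) B).map σ := by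
    ext i j
    have h1 : polar (qMinus m F a b) ((g : Equiv.Perm _) (B i)) ((g : Equiv.Perm _) (B j)) =
        c * σ (polar (qMinus m F a b) (B i) (B j)) := (isSemiSim g).polar_map (B i) (B j)
    have h3 : polar (qMinus m F a b) ((g : Equiv.Perm _) (B i)) ((g : Equiv.Perm _) (B j)) =
        (M.transpose * gram (qMinus m F a b) B * M) i j := by
      rw [gram_eq_toMatrix, Matrix.mul_assoc, Matrix.mul_apply]
      have hb : ∀ u w : (Fin m ⊕ Fin m) ⊕ Fin 2 → F, polar (qMinus m F a b) u w =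
          u ⬝ᵥ (LinearMap.BilinForm.toMatrix B (polarBilin (qMinus m F a b)) *ᵥ w) := fun u w => by
        have h := LinearMap.BilinForm.dotProduct_toMatrix_mulVec B (polarBilin (qMinus m F a b)) u w
        simpa [B] using h.symm
      rw [hb]
      simp [dotProduct, Matrix.mulVec, Matrix.mul_apply, M]
    rw [← h3, h1]
    simp [gram]
  set δ := M.det with hδ
  have hDσ : δ * D * δ = c ^ (2 * (m + 1)) * σ D := by
    have h := congrArg Matrix.det hgram
    rw [Matrix.det_mul, Matrix.det_mul, Matrix.det_transpose, Matrix.det_smul, ← RingEquiv.mapMatrix_apply,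
      ← RingEquiv.map_det] at h
    rw [h, ← hD, ← hE.rank, Module.finrank_fintype_fun_eq_card]
  have hδl : δ * σ δ = l ^ (2 * (m + 1)) := by
    have h := congrArg Matrix.det hMM
    rw [Matrix.det_mul, Matrix.det_smul, Matrix.det_one, mul_one, ← RingEquiv.mapMatrix_apply,
      ← RingEquiv.map_det] at h
    rw [h, ← hE.rank, Module.finrank_fintype_fun_eq_card]
  have hcl : c * σ c = l ^ 2 := by
    obtain ⟨v, hv⟩ := hE.exists_ne
    have h1 := (isSemiSim g).map_app ((g : Equiv.Perm _) v)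
    rw [simEquiv_apply, hl, qf_smul, ← simEquiv_apply, (isSemiSim g).map_app, map_mul,
      ← hσ, hσσ] at h1
    refine mul_right_cancel₀ hv ?_
    linear_combination -h1
  set y := δ / c ^ (m + 1) with hy
  have hσD : σ D = D * y ^ 2 := by
    rw [hy, div_pow, ← pow_mul, mul_comm (m + 1) 2]
    field_simp
    linear_combination -hDσ
  have hyy : y * σ y = 1 := by
    rw [hy, map_div₀, map_pow, div_mul_div_comm, ← mul_pow, hcl, hδl, ← pow_mul, div_self]
    intro h
    have hl0 : l = 0 := eq_zero_of_pow_eq_zero h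
    rw [hl0] at hcl
    simp only [ne_eq, OfNat.ofNat_ne_zero, not_false_eq_true, zero_pow, mul_eq_zero, hc0, false_or] at hcl
    exact hc0 (by simpa using hcl)
  have hy0 : y ≠ 0 := fun h => by rw [h, zero_mul] at hyy; exact zero_ne_one hyy
  have hσy : σ y = y⁻¹ := (eq_inv_of_mul_eq_one_right hyy)
  obtain ⟨z, hz0, hz⟩ : ∃ z, z ≠ 0 ∧ σ z = y * z := by
    by_cases hy1 : y = -1
    · obtain ⟨w, hw⟩ : ∃ w, σ w ≠ w := by
        by_contra hcon
        push Not at hcon
        exact hne (RingEquiv.ext hcon)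
      exact ⟨w - σ w, sub_ne_zero.2 (Ne.symm hw), by rw [map_sub, hσσ, hy1]; ring⟩
    · refine ⟨1 + y⁻¹, ?_, ?_⟩
      · intro h0
        apply hy1
        field_simp at h0
        linear_combination h0
      · rw [map_add, map_one, map_inv₀, hσy, inv_inv, mul_add, mul_inv_cancel₀ hy0, mul_one, add_comm]
  refine hDns ?_
  obtain ⟨r, hr⟩ := hfix (D / z ^ 2) (by
    rw [map_div₀, map_pow, hz, hσD]
    field_simp)
  refine ⟨r * z, ?_⟩
  field_simp at hr
  linear_combination hr

include hab in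
theorem split_minus (hodd : Odd (Fintype.card F)) (hm : 3 ≤ m)
    (γ : MulAut (Cfsg.POmega F (Cfsg.quadFormMinus m F a b)))
    (hγ : Cfsg.IsGraphAutClassPOmegaMinus m a b γ) (hγ2 : orderOf γ = 2) :
    (Cfsg.splitClassCount (Cfsg.inndiagPOmegaMinus m F a b) (Cfsg.Inn (Cfsg.POmega F (Cfsg.quadFormMinus m F a b))) γ = 1 ∨
      Cfsg.splitClassCount (Cfsg.inndiagPOmegaMinus m F a b) (Cfsg.Inn (Cfsg.POmega F (Cfsg.quadFormMinus m F a b))) γ = 2) ∧
    (¬ (Even m ∧ Fintype.card F % 4 = 1) →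
      Cfsg.splitClassCount (Cfsg.inndiagPOmegaMinus m F a b) (Cfsg.Inn (Cfsg.POmega F (Cfsg.quadFormMinus m F a b))) γ = 2) := by
  haveI : Finite ((Fin m ⊕ Fin m) ⊕ Fin 2 → F) := Pi.finite
  have h2 := Conformal.two_ne_zero_of_odd_card hodd
  have hE := evenForm_qMinus (F := F) (m := m) (by omega) (disc_ne_zero hab)
  haveI := hE.nontrivial
  obtain ⟨-, hnin, -⟩ := hγ
  obtain ⟨g, rfl⟩ := indHom_surjective (qMinus m F a b) (coe_qMinus m a b) (autHyp_qMinus hab hm) γ
  obtain ⟨l, hl⟩ := exists_square_scalar _ hE g hγ2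
  have hs := sigma_trivial hab h2 hm g hl
  have hgs : g ∈ linSim (qMinus m F a b) := fun t v => by
    have h := (isSemiSim g).map_smul t v
    rw [hs] at h
    exact h
  rw [inndiag_minus_eq hm hab] at hnin ⊢
  have hgp : ¬ IsProper (m + 1) (⟨g, hgs⟩ : linSim (qMinus m F a b)) := fun h =>
    hnin ⟨g, (mem_properSim hE (g := ⟨g, hgs⟩)).2 h, rfl⟩
  obtain ⟨h1, h3⟩ := split_count (coe_qMinus m a b) hE h2 (hmult_minus hab) ⟨g, hgs⟩ hgp hl
  refine ⟨h1, fun h => h3 ?_⟩
  rcases Nat.even_or_odd m with he | ho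
  · refine Or.inl ((negOrth_minus_iff hab h2 hm).2 ⟨he, ?_⟩)
    have h4 : Fintype.card F % 4 ≠ 1 := fun h4 => h ⟨he, h4⟩
    obtain ⟨j, hj⟩ := hodd
    omega
  · exact Or.inr ho.add_one

end minus

end Cfsg.Agent.H62.GraphSplit
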