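import Cfsg.Agent.H67.IsometryConj
import Cfsg.Agent.H4.Coset.Proper
import Cfsg.Agent.H4.DiscClass
import Mathlib.LinearAlgebra.Semisimple
import Mathlib.FieldTheory.Finite.GaloisField

/-!
An isometry of odd order prime to the characteristic, in odd characteristic, commutes with proper
similarities of every multiplier and with a special isometry of spinor norm `-1`.
-/

set_option autoImplicit false
set_option maxHeartbeats 400000
set_option linter.unusedSectionVars false

namespace Cfsg.Agent.H62.SemiComm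

open QuadraticMap hiding sq
open Module Polynomial
open Cfsg.Agent.H4 hiding perp mem_perp
open Cfsg.Agent.H5 (orth refl refl_apply dick spin sqc orth_map orth_ext orth_mul_apply perp mem_perp)

variable {F V : Type*} [Field F] [Finite F] [AddCommGroup V] [Module F V] [FiniteDimensional F V] [Finite V]
  {Q : QuadraticForm F V} {n : ℕ}

local notation "Q⟪" x ", " y "⟫" => polar Q x y

/-! ### Involutions with a prescribed negative space -/

/-- The product of the reflections in orthogonal vectors. -/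
theorem refl_list_apply (h2 : (2 : F) ≠ 0) (l : List V) (hl : ∀ v ∈ l, Q v ≠ 0)
    (hp : l.Pairwise fun a b => polar Q a b = 0) :
    (∀ v ∈ l, (((l.map (refl Q)).prod : orth Q) : V ≃ₗ[F] V) v = -v) ∧
      ∀ x, (∀ v ∈ l, polar Q v x = 0) → (((l.map (refl Q)).prod : orth Q) : V ≃ₗ[F] V) x = x := by
  induction l with
  | nil => exact ⟨fun v hv => absurd hv List.not_mem_nil, fun x _ => rfl⟩
  | cons a t ih =>
    rw [List.pairwise_cons] at hp
    obtain ⟨ih1, ih2⟩ := ih (fun v hv => hl v (List.mem_cons_of_mem _ hv)) hp.2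
    have ha := hl a List.mem_cons_self
    refine ⟨fun v hv => ?_, fun x hx => ?_⟩
    · rw [List.map_cons, List.prod_cons, orth_mul_apply]
      rcases List.mem_cons.1 hv with rfl | hv'
      · rw [ih2 v (fun w hw => (polar_comm _ _ _).trans (hp.1 w hw)), refl_apply, H5.polar_self',
          show (Q v)⁻¹ * (2 * Q v) = 2 by field_simp, two_smul]
        abel
      · rw [ih1 v hv', map_neg, refl_apply, hp.1 v hv', mul_zero, zero_smul, sub_zero]
    · rw [List.map_cons, List.prod_cons, orth_mul_apply,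
        ih2 x (fun w hw => hx w (List.mem_cons_of_mem _ hw)), refl_apply, hx a List.mem_cons_self,
        mul_zero, zero_smul, sub_zero]

theorem dick_list (hE : EvenForm Q n) (l : List V) (hl : ∀ v ∈ l, Q v ≠ 0) :
    dick (l.map (refl Q)).prod = (-1) ^ l.length := by
  induction l with
  | nil => rw [List.map_nil, List.prod_nil, H5.dick_one]; rfl
  | cons a t ih =>
    rw [List.map_cons, List.prod_cons, H5.dick_refl_mul hE.nondeg (hl a List.mem_cons_self),
      ih (fun v hv => hl v (List.mem_cons_of_mem _ hv)), List.length_cons, pow_succ, mul_neg_one]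

/-- The involution with negative space `W`, its Dickson invariant and spinor norm. -/
theorem exists_involution (h2 : (2 : F) ≠ 0) (hE : EvenForm Q n) (W : Submodule F V)
    (hW : (polarBilin (Q.restrict W)).Nondegenerate) :
    ∃ s : orth Q, (∀ w ∈ W, (s : V ≃ₗ[F] V) w = -w) ∧
      (∀ x, (∀ w ∈ W, polar Q w x = 0) → (s : V ≃ₗ[F] V) x = x) ∧
      dick s = (-1) ^ finrank F W ∧
      ∀ {κ : Type} [Fintype κ] [DecidableEq κ] (b : Basis κ F W),
        spin Q s = sqc ((2 : F) ^ finrank F W * (H4.gram (Q.restrict W) b).det) := by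
  obtain ⟨e, hoe⟩ : ∃ e : Basis (Fin (finrank F W)) F W,
      ∀ i j, i ≠ j → polar (Q.restrict W) (e i) (e j) = 0 := by
    obtain ⟨α, hα⟩ := H5.exists_not_isSquare h2
    rcases Nat.eq_zero_or_pos (finrank F W) with h0 | hpos
    · exact ⟨Module.finBasis F W, fun i => absurd i.2 (by omega)⟩
    · obtain ⟨b, -, -, hb, -⟩ := exists_orth_basis h2 hW
        (show finrank F W = (finrank F W - 1) + 1 by omega) α hα
      refine ⟨b.reindex (finCongr (by omega)), fun i j hij => ?_⟩
      rw [Basis.reindex_apply, Basis.reindex_apply]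
      exact hb _ _ fun h => hij ((finCongr _).symm.injective h)
  have hval : ∀ i, Q (e i : V) ≠ 0 := fun i hi => by
    refine e.ne_zero i (hW.1 (e i) fun y => ?_)
    have key : polarBilin (Q.restrict W) (e i) = 0 := e.ext fun j => by
      rw [polarBilin_apply_apply, LinearMap.zero_apply]
      rcases eq_or_ne i j with rfl | hij
      · show polar Q (e i : V) (e i : V) = 0
        rw [H5.polar_self', hi, mul_zero]
      · exact hoe i j hij
    rw [key, LinearMap.zero_apply]
  set l : List V := List.ofFn fun i => (e i : V) with hl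
  have hlQ : ∀ v ∈ l, Q v ≠ 0 := fun v hv => by
    obtain ⟨i, rfl⟩ := List.mem_ofFn.1 hv
    exact hval i
  have hlp : l.Pairwise fun a b => polar Q a b = 0 :=
    List.pairwise_ofFn.2 fun i j hij => hoe i j hij.ne
  obtain ⟨h1, h3⟩ := refl_list_apply h2 l hlQ hlp
  refine ⟨(l.map (refl Q)).prod, fun w hw => ?_, fun x hx => ?_, ?_, fun b => ?_⟩
  · have key : ((((l.map (refl Q)).prod : orth Q) : V ≃ₗ[F] V) : V →ₗ[F] V) ∘ₗ W.subtype = -W.subtype :=
      e.ext fun i => h1 _ (List.mem_ofFn.2 ⟨i, rfl⟩)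
    exact LinearMap.congr_fun key ⟨w, hw⟩
  · refine h3 x fun v hv => ?_
    obtain ⟨i, rfl⟩ := List.mem_ofFn.1 hv
    exact hx _ (e i).2
  · rw [dick_list hE l hlQ, hl, List.length_ofFn]
  · obtain ⟨t, ht0, ht⟩ := det_gram_isom (Q := Q.restrict W) (Q' := Q.restrict W)
      (LinearEquiv.refl F W) (fun _ => rfl) b e
    have hdiag : H4.gram (Q.restrict W) e = Matrix.diagonal fun i => 2 * Q (e i : V) := by
      ext i j
      rcases eq_or_ne i j with rfl | hij
      · rw [Matrix.diagonal_apply_eq]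
        exact H5.polar_self' Q (e i : V)
      · rw [Matrix.diagonal_apply_ne _ hij]
        exact hoe i j hij
    have hprod : (l.map fun v => Q v).prod = ∏ i, Q (e i : V) := by
      rw [hl, List.map_ofFn, List.prod_ofFn]; rfl
    rw [H5.spin_list_prod _ hlQ, hprod, ht, hdiag, Matrix.det_diagonal, Finset.prod_mul_distrib,
      Finset.prod_const, Finset.card_univ, Fintype.card_fin]
    set P := ∏ i, Q (e i : V) with hP
    have hP0 : P ≠ 0 := Finset.prod_ne_zero_iff.2 fun i _ => hval i
    set d := finrank F W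
    rw [show (2 : F) ^ d * (t ^ 2 * ((2 : F) ^ d * P)) = (2 : F) ^ d * t * ((2 : F) ^ d * t) * P by ring,
      H5.sqc_mul (mul_ne_zero (mul_ne_zero (pow_ne_zero _ h2) ht0) (mul_ne_zero (pow_ne_zero _ h2) ht0)) hP0,
      H5.sqc_of_sq, one_mul]

/-! ### The symmetrised operator -/

/-- A symmetric operator killed by a squarefree polynomial moves an anisotropic vector of an
invariant subspace into an irreducible primary component. -/
theorem exists_primary_vector (T : Module.End F V) (hT : ∀ x y, polar Q (T x) y = polar Q x (T y))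
    (W : Submodule F V) (hW : ∀ x ∈ W, T x ∈ W) :
    ∀ (p : F[X]), Squarefree p → ∀ v ∈ W, Q v ≠ 0 → aeval T p v = 0 →
      ∃ g : F[X], Irreducible g ∧ ∃ w ∈ W, Q w ≠ 0 ∧ aeval T g w = 0 := by
  have hmemW : ∀ (p : F[X]), ∀ x ∈ W, aeval T p x ∈ W := by
    intro p x hx
    induction p using Polynomial.induction_on' with
    | add a b ha hb => rw [map_add, LinearMap.add_apply]; exact W.add_mem ha hb
    | monomial i c =>
      rw [aeval_monomial, Module.End.mul_apply, Module.algebraMap_end_apply]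
      refine W.smul_mem _ ?_
      induction i with
      | zero => simpa using hx
      | succ i ih => rw [pow_succ', Module.End.mul_apply]; exact hW _ ih
  have hsym : ∀ (p : F[X]) x y, polar Q (aeval T p x) y = polar Q x (aeval T p y) := by
    intro p
    induction p using Polynomial.induction_on' with
    | add a b ha hb =>
      intro x y
      rw [map_add, LinearMap.add_apply, LinearMap.add_apply, polar_add_left, polar_add_right, ha, hb]
    | monomial i c =>
      intro x y
      simp only [aeval_monomial, Module.End.mul_apply, Module.algebraMap_end_apply, polar_smul_left,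
        polar_smul_right]
      congr 1
      induction i generalizing x y with
      | zero => simp
      | succ i ih =>
        rw [pow_succ', Module.End.mul_apply, hT, ih, ← Module.End.mul_apply, ← pow_succ, pow_succ']
  intro p
  induction p using WellFounded.induction (wellFounded_dvdNotUnit (α := F[X])) with
  | h p ih => ?_
  intro hp v hv hQv hpv
  have hv0 : v ≠ 0 := fun h => hQv (by rw [h, QuadraticMap.map_zero])
  have hp0 : p ≠ 0 := hp.ne_zero
  have hpu : ¬ IsUnit p := by
    intro hu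
    obtain ⟨c, hc, hcp⟩ := Polynomial.isUnit_iff.1 hu
    rw [← hcp, aeval_C, Module.algebraMap_end_apply, smul_eq_zero] at hpv
    exact hc.ne_zero (hpv.resolve_right hv0)
  by_cases hirr : Irreducible p
  · exact ⟨p, hirr, v, hv, hQv, hpv⟩
  rw [irreducible_iff] at hirr
  push Not at hirr
  obtain ⟨a, b, rfl, ha, hb⟩ := hirr hpu
  obtain ⟨u, w, huw⟩ := (squarefree_mul_iff.1 hp).1.isCoprime
  have ha0 : a ≠ 0 := left_ne_zero_of_mul hp0
  have hb0 : b ≠ 0 := right_ne_zero_of_mul hp0
  set x := aeval T (u * a) v with hx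
  set y := aeval T (w * b) v with hy
  have hxy : x + y = v := by
    rw [hx, hy, ← LinearMap.add_apply, ← map_add, huw, map_one, Module.End.one_apply]
  have hkill : ∀ c : F[X], aeval T (c * (a * b)) v = 0 := fun c => by
    rw [map_mul, Module.End.mul_apply, hpv, map_zero]
  have hbx : aeval T b x = 0 := by
    rw [hx, ← Module.End.mul_apply, ← map_mul, show b * (u * a) = u * (a * b) by ring, hkill]
  have hay : aeval T a y = 0 := by
    rw [hy, ← Module.End.mul_apply, ← map_mul, show a * (w * b) = w * (a * b) by ring, hkill]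
  have horth : polar Q x y = 0 := by
    rw [hx, hy, hsym, ← Module.End.mul_apply, ← map_mul,
      show u * a * (w * b) = u * w * (a * b) by ring, hkill, polar_zero_right]
  have hQ' : Q x + Q y = Q v := by
    rw [← hxy, QuadraticMap.map_add Q, horth, add_zero]
  by_cases hQx : Q x = 0
  · refine ih a ⟨ha0, b, hb, rfl⟩ (squarefree_mul_iff.1 hp).2.1 y (hmemW _ v hv) ?_ hay
    intro h
    exact hQv (by rw [← hQ', hQx, h, add_zero])
  · exact ih b ⟨hb0, a, ha, mul_comm a b⟩ (squarefree_mul_iff.1 hp).2.2 x (hmemW _ v hv) hQx hbx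

variable (k : orth Q)

/-- `k + k⁻¹`. -/
def symPart : Module.End F V := ((k : V ≃ₗ[F] V) : V →ₗ[F] V) + ((k : V ≃ₗ[F] V).symm : V →ₗ[F] V)

/-- `k - k⁻¹`. -/
def skewPart : Module.End F V := ((k : V ≃ₗ[F] V) : V →ₗ[F] V) - ((k : V ≃ₗ[F] V).symm : V →ₗ[F] V)

theorem polar_k_left (x y : V) : polar Q ((k : V ≃ₗ[F] V) x) y = polar Q x ((k : V ≃ₗ[F] V).symm y) := by
  conv_lhs => rw [← (k : V ≃ₗ[F] V).apply_symm_apply y, H5.orth_polar]

theorem polar_ksymm_left (x y : V) : polar Q ((k : V ≃ₗ[F] V).symm x) y = polar Q x ((k : V ≃ₗ[F] V) y) := by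
  conv_rhs => rw [← (k : V ≃ₗ[F] V).apply_symm_apply x, H5.orth_polar]

theorem symPart_adj (x y : V) : polar Q (symPart k x) y = polar Q x (symPart k y) := by
  simp only [symPart, LinearMap.add_apply, LinearEquiv.coe_coe, polar_add_left, polar_add_right,
    polar_k_left, polar_ksymm_left, add_comm]

theorem skewPart_adj (x y : V) : polar Q (skewPart k x) y = -polar Q x (skewPart k y) := by
  simp only [skewPart, LinearMap.sub_apply, LinearEquiv.coe_coe, polar_sub_left, polar_sub_right,
    polar_k_left, polar_ksymm_left, neg_sub]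

theorem symPart_comm (x : V) : symPart k (skewPart k x) = skewPart k (symPart k x) := by
  simp [symPart, skewPart]
  abel

theorem skewPart_sq (x : V) : skewPart k (skewPart k x) = symPart k (symPart k x) - (4 : F) • x := by
  simp only [symPart, skewPart, LinearMap.sub_apply, LinearMap.add_apply, LinearEquiv.coe_coe,
    map_sub, map_add, LinearEquiv.apply_symm_apply, LinearEquiv.symm_apply_apply,
    show (4 : F) • x = x + x + x + x by
      rw [show (4 : F) = 1 + 1 + 1 + 1 by norm_num, add_smul, add_smul, add_smul, one_smul]]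
  abel

theorem k_eq (h2 : (2 : F) ≠ 0) (x : V) :
    (k : V ≃ₗ[F] V) x = (2 : F)⁻¹ • (symPart k x + skewPart k x) ∧
      (k : V ≃ₗ[F] V).symm x = (2 : F)⁻¹ • (symPart k x - skewPart k x) := by
  simp only [symPart, skewPart, LinearMap.sub_apply, LinearMap.add_apply, LinearEquiv.coe_coe]
  constructor
  · rw [add_add_sub_cancel, ← two_smul F, smul_smul, inv_mul_cancel₀ h2, one_smul]
  · rw [add_sub_sub_cancel, ← two_smul F, smul_smul, inv_mul_cancel₀ h2, one_smul]

theorem squarefree_symPart {r : ℕ} (hr : (r : F) ≠ 0) (hk : (k : V ≃ₗ[F] V) ^ r = 1) :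
    Squarefree (minpoly F (symPart k)) := by
  set E : Module.End F V := ((k : V ≃ₗ[F] V) : V →ₗ[F] V) with hEdef
  have hpow : ∀ (i : ℕ) (x : V), ((k : V ≃ₗ[F] V) ^ i) x = (E ^ i) x := by
    intro i
    induction i with
    | zero => intro x; rfl
    | succ i ih => intro x; rw [pow_succ', pow_succ', LinearEquiv.mul_apply, Module.End.mul_apply, ih]; rfl
  have hEr : E ^ r = 1 := LinearMap.ext fun x => by rw [← hpow, hk]; rfl
  have hEss : E.IsSemisimple := by
    refine Module.End.isSemisimple_of_squarefree_aeval_eq_zero (p := X ^ r - 1)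
      (Polynomial.X_pow_sub_one_separable_iff.2 hr).squarefree ?_
    simp [hEr]
  have hr0 : r ≠ 0 := fun h => hr (by simp [h])
  have hinv : ((k : V ≃ₗ[F] V).symm : V →ₗ[F] V) = E ^ (r - 1) := LinearMap.ext fun x => by
    refine (k : V ≃ₗ[F] V).injective ?_
    rw [LinearEquiv.coe_coe, LinearEquiv.apply_symm_apply]
    show x = E ((E ^ (r - 1)) x)
    rw [← Module.End.mul_apply, ← pow_succ', show r - 1 + 1 = r by omega, hEr]
    rfl
  rw [symPart, hinv]
  exact (Module.End.IsSemisimple.add_of_commute ((Commute.refl E).pow_right _) hEss (hEss.pow _)).minpoly_squarefree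

/-! ### A plane over a field of symmetric operators -/

section plane

variable {k} {g : F[X]} [Fact (Irreducible g)] (h2 : (2 : F) ≠ 0) (v : V)

/-- The action of `F[X]/(g)` on a vector killed by `g`. -/
noncomputable def actVec (hv : aeval (symPart k) g v = 0) : AdjoinRoot g →ₗ[F] V :=
  (Ideal.span {g}).restrictScalars F |>.liftQ
    ((LinearMap.applyₗ v).comp (aeval (symPart k) : F[X] →ₐ[F] Module.End F V).toLinearMap)
    fun p hp => by
      obtain ⟨q, rfl⟩ := Ideal.mem_span_singleton'.1 hp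
      show aeval (symPart k) (q * g) v = 0
      rw [map_mul, Module.End.mul_apply, hv, map_zero]

theorem actVec_mk (hv : aeval (symPart k) g v = 0) (p : F[X]) :
    actVec v hv (AdjoinRoot.mk g p) = aeval (symPart k) p v := rfl

end plane

theorem polar_aeval (p : F[X]) (x y : V) :
    polar Q (aeval (symPart k) p x) y = polar Q x (aeval (symPart k) p y) := by
  induction p using Polynomial.induction_on' with
  | add a b ha hb => rw [map_add, LinearMap.add_apply, LinearMap.add_apply, polar_add_left, polar_add_right, ha, hb]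
  | monomial i c =>
    simp only [aeval_monomial, Module.End.mul_apply, Module.algebraMap_end_apply, polar_smul_left,
      polar_smul_right]
    congr 1
    induction i generalizing x y with
    | zero => simp
    | succ i ih =>
      rw [pow_succ', Module.End.mul_apply, symPart_adj, ih, ← Module.End.mul_apply, ← pow_succ, pow_succ']

theorem aeval_skew (p : F[X]) (x : V) :
    aeval (symPart k) p (skewPart k x) = skewPart k (aeval (symPart k) p x) := by
  induction p using Polynomial.induction_on' with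
  | add a b ha hb => rw [map_add, LinearMap.add_apply, LinearMap.add_apply, map_add, ha, hb]
  | monomial i c =>
    simp only [aeval_monomial, Module.End.mul_apply, Module.algebraMap_end_apply, map_smul]
    congr 1
    induction i generalizing x with
    | zero => simp
    | succ i ih => rw [pow_succ, Module.End.mul_apply, Module.End.mul_apply, symPart_comm, ih]

/-- **A special isometry of spinor norm `-1` commuting with `k`.** -/
theorem exists_spin_neg (h2 : (2 : F) ≠ 0) (hE : EvenForm Q n) {r : ℕ} (hodd : Odd r)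
    (hr : (r : F) ≠ 0) (hk : (k : V ≃ₗ[F] V) ^ r = 1) (hne : k ≠ 1) :
    ∃ z : orth Q, dick z = 1 ∧ spin Q z = -1 ∧
      ∀ x, (z : V ≃ₗ[F] V) ((k : V ≃ₗ[F] V) x) = (k : V ≃ₗ[F] V) ((z : V ≃ₗ[F] V) x) := by
  classical
  haveI := Fintype.ofFinite F
  set B := polarBilin Q with hB
  set Kx := LinearMap.ker (((k : V ≃ₗ[F] V) ^ 1).toLinearMap - 1) with hKx
  set Rx := LinearMap.range (((k : V ≃ₗ[F] V) ^ 1).toLinearMap - 1) with hRx
  have hc := H67.split_pow_sub_one (j := 1) hr hk
  have hBk : ∀ x z, B ((k : V ≃ₗ[F] V) x) ((k : V ≃ₗ[F] V) z) = B x z := fun x z => H5.orth_polar k x z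
  have hor : ∀ u ∈ Rx, ∀ w ∈ Kx, B u w = 0 ∧ B w u = 0 := fun u hu w hw =>
    H67.moved_orth_fixed B ((k : V ≃ₗ[F] V) ^ 1) (by simpa using hBk) hu hw
  have hRn : (polarBilin (Q.restrict Rx)).Nondegenerate :=
    H67.restrict_nondeg B hE.nondeg Rx Kx hc hor
  have hRk : ∀ u ∈ Rx, (k : V ≃ₗ[F] V) u ∈ Rx := by
    rintro _ ⟨w, rfl⟩; exact ⟨(k : V ≃ₗ[F] V) w, by simp [map_sub]⟩
  have hRk' : ∀ u ∈ Rx, (k : V ≃ₗ[F] V).symm u ∈ Rx := by
    rintro _ ⟨w, rfl⟩; exact ⟨(k : V ≃ₗ[F] V).symm w, by simp [map_sub]⟩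
  have hR0 : ∃ v ∈ Rx, Q v ≠ 0 := by
    by_contra h
    push Not at h
    refine hne (orth_ext fun x => ?_)
    have hz : ((k : V ≃ₗ[F] V) x - x) ∈ Rx := ⟨x, by simp⟩
    have h0 : (⟨_, hz⟩ : Rx) = 0 := hRn.1 _ fun w => by
      show polar (Q.restrict Rx) _ _ = 0
      simp only [QuadraticMap.polar, QuadraticMap.restrict_apply]
      rw [h _ (Submodule.coe_mem _), h _ hz, h _ w.2]; ring
    exact sub_eq_zero.1 (congrArg Subtype.val h0)
  obtain ⟨v₀, hv₀R, hv₀⟩ := hR0
  obtain ⟨g, hg, v, hvR, hQv, hgv⟩ := exists_primary_vector (symPart k) (symPart_adj k) Rx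
    (fun x hx => Rx.add_mem (hRk x hx) (hRk' x hx)) _ (squarefree_symPart k hr hk) v₀ hv₀R hv₀
    (by rw [minpoly.aeval]; rfl)
  haveI := Fact.mk hg
  haveI : FiniteDimensional F (AdjoinRoot g) := (AdjoinRoot.powerBasis hg.ne_zero).finite
  haveI : Finite (AdjoinRoot g) := Module.finite_of_finite F
  -- the two halves of the plane
  let P : AdjoinRoot g →ₗ[F] V := actVec (k := k) v hgv
  let M : AdjoinRoot g →ₗ[F] V := skewPart k ∘ₗ P
  set ε : AdjoinRoot g := AdjoinRoot.root g ^ 2 - 4 with hεdef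
  have hP1 : P 1 = v := by
    show actVec v hgv (AdjoinRoot.mk g 1) = v
    rw [actVec_mk, map_one]; rfl
  have hskew2 : ∀ a, skewPart k (M a) = P (ε * a) := by
    intro a
    induction a using AdjoinRoot.induction_on with
    | _ p =>
      show skewPart k (skewPart k (aeval (symPart k) p v)) = P _
      rw [skewPart_sq, hεdef, show (AdjoinRoot.root g ^ 2 - 4) * AdjoinRoot.mk g p =
        AdjoinRoot.mk g ((X ^ 2 - 4) * p) by simp [AdjoinRoot.mk_X, map_ofNat]]
      show _ = aeval (symPart k) ((X ^ 2 - 4) * p) v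
      simp [pow_two, map_ofNat, Module.End.ofNat_apply, ofNat_smul_eq_nsmul]
  have hsym : ∀ a, symPart k (P a) = P (AdjoinRoot.root g * a) ∧ symPart k (M a) = M (AdjoinRoot.root g * a) := by
    intro a
    induction a using AdjoinRoot.induction_on with
    | _ p =>
      have e : AdjoinRoot.root g * AdjoinRoot.mk g p = AdjoinRoot.mk g (X * p) := by
        simp [AdjoinRoot.mk_X]
      rw [e]
      refine ⟨?_, ?_⟩
      · show symPart k (aeval (symPart k) p v) = aeval (symPart k) (X * p) v
        simp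
      · show symPart k (skewPart k (aeval (symPart k) p v)) = skewPart k (aeval (symPart k) (X * p) v)
        simp [symPart_comm]
  let h : AdjoinRoot g →ₗ[F] F := (B.flip v) ∘ₗ P
  have hPP : ∀ a b, polar Q (P a) (P b) = h (a * b) := by
    intro a b
    induction a using AdjoinRoot.induction_on with
    | _ p =>
      induction b using AdjoinRoot.induction_on with
      | _ q =>
        show polar Q (aeval (symPart k) p v) (aeval (symPart k) q v) =
          polar Q (actVec v hgv (AdjoinRoot.mk g p * AdjoinRoot.mk g q)) v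
        rw [← map_mul, actVec_mk, mul_comm p q, map_mul, Module.End.mul_apply, ← polar_aeval k q,
          polar_comm]
  have hPM : ∀ a b, polar Q (P a) (M b) = 0 := by
    intro a b
    induction a using AdjoinRoot.induction_on with
    | _ p =>
      induction b using AdjoinRoot.induction_on with
      | _ q =>
        show polar Q (aeval (symPart k) p v) (skewPart k (aeval (symPart k) q v)) = 0
        set x := aeval (symPart k) p v
        set y := aeval (symPart k) q v
        have e1 : polar Q x (skewPart k y) = polar Q (skewPart k y) x := polar_comm _ _ _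
        have e2 := skewPart_adj k y x
        have key : ∀ p q : F[X], polar Q (aeval (symPart k) p v) (skewPart k (aeval (symPart k) q v)) =
            polar Q v (aeval (symPart k) (p * q) (skewPart k v)) := fun p q => by
          rw [← aeval_skew, polar_aeval, map_mul, Module.End.mul_apply]
        have e3 : polar Q x (skewPart k y) = polar Q y (skewPart k x) :=
          (key p q).trans ((mul_comm p q) ▸ (key q p).symm)
        exact (mul_eq_zero.1 (show (2 : F) * polar Q x (skewPart k y) = 0 by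
          linear_combination e1 + e2 + e3)).resolve_left h2
  have hMM : ∀ a b, polar Q (M a) (M b) = h (-ε * (a * b)) := by
    intro a b
    show polar Q (skewPart k (P a)) (M b) = _
    rw [skewPart_adj, hskew2, hPP, ← map_neg]
    congr 1; ring
  have hε0 : ε ≠ 0 := by
    intro h0
    have h00 := hskew2 1
    rw [h0, zero_mul, map_zero] at h00
    have hd : skewPart k (skewPart k v) = 0 := by rw [← hP1]; exact h00
    -- skewPart is injective on the moved space
    have hinj : ∀ u ∈ Rx, skewPart k u = 0 → u = 0 := by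
      intro u hu h1
      have h2' : (k : V ≃ₗ[F] V) ((k : V ≃ₗ[F] V) u) = u := by
        have h1' : (k : V ≃ₗ[F] V) u = (k : V ≃ₗ[F] V).symm u := sub_eq_zero.1 h1
        rw [h1']; exact (k : V ≃ₗ[F] V).apply_symm_apply u
      refine Submodule.disjoint_def.1 hc.disjoint u hu ?_
      obtain ⟨j, rfl⟩ := hodd
      have h3 : ∀ i, (((k : V ≃ₗ[F] V) ^ 2) ^ i) u = u := fun i => by
        induction i with
        | zero => simp
        | succ i ih => rw [pow_succ, LinearEquiv.mul_apply, pow_two, LinearEquiv.mul_apply, h2', ← pow_two, ih]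
      have h4 : (k : V ≃ₗ[F] V) u = u := by
        have := LinearEquiv.congr_fun hk u
        rwa [pow_succ', pow_mul, LinearEquiv.mul_apply, h3] at this
      simp [h4]
    have hv0 : v ≠ 0 := fun h => hQv (by rw [h, QuadraticMap.map_zero])
    exact hv0 (hinj v hvR (hinj _ (Rx.sub_mem (hRk v hvR) (hRk' v hvR)) hd))
  have hh1 : h 1 ≠ 0 := by
    show polar Q (P 1) v ≠ 0
    rw [hP1, H5.polar_self']
    exact mul_ne_zero h2 hQv
  have hnd : ∀ a, (∀ b, h (a * b) = 0) → a = 0 := fun a ha => by
    by_contra h0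
    exact hh1 (by rw [← mul_inv_cancel₀ h0]; exact ha a⁻¹)
  -- a norm of non-square class
  obtain ⟨c, hc0⟩ := H5.exists_not_isSquare h2
  obtain ⟨ν, hν⟩ := FiniteField.norm_surjective F (AdjoinRoot g) c
  haveI := Fintype.ofFinite (AdjoinRoot g)
  have hν0 : ν ≠ 0 := fun h0 => hc0 (by rw [← hν, h0, Algebra.norm_zero]; exact IsSquare.zero)
  have h2L : (2 : AdjoinRoot g) ≠ 0 := by
    rw [show (2 : AdjoinRoot g) = algebraMap F _ 2 by rw [map_ofNat]]
    simpa using h2
  obtain ⟨a₀, b₀, hab⟩ := FiniteField.exists_root_sum_quadratic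
    (f := (X ^ 2 : (AdjoinRoot g)[X])) (g := C (-ε) * X ^ 2 - C ν) (degree_X_pow 2)
    (by
      rw [degree_sub_eq_left_of_degree_lt (by
        rw [degree_C_mul_X_pow 2 (neg_ne_zero.2 hε0)]
        exact lt_of_le_of_lt degree_C_le (by norm_num))]
      exact degree_C_mul_X_pow 2 (neg_ne_zero.2 hε0))
    (by
      rw [Fintype.card_eq_nat_card]
      have := FiniteField.odd_card_of_char_ne_two (F := AdjoinRoot g) fun hc2 => h2L (by
        haveI : CharP (AdjoinRoot g) 2 := (ringChar.eq_iff).1 hc2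
        exact CharTwo.two_eq_zero)
      rwa [Fintype.card_eq_nat_card] at this)
  simp only [eval_pow, eval_X, eval_sub, eval_mul, eval_C] at hab
  have hab' : a₀ * a₀ - ε * (b₀ * b₀) = ν := by linear_combination hab
  -- the second plane
  let P' : AdjoinRoot g →ₗ[F] V :=
    P ∘ₗ LinearMap.mulRight F a₀ + M ∘ₗ LinearMap.mulRight F b₀
  let M' : AdjoinRoot g →ₗ[F] V := skewPart k ∘ₗ P'
  have hP' : ∀ a, P' a = P (a * a₀) + M (a * b₀) := fun a => rfl
  have hM' : ∀ a, M' a = M (a * a₀) + P (ε * (a * b₀)) := fun a => by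
    show skewPart k (P' a) = _
    rw [hP', map_add, hskew2]; rfl
  have hMM' : ∀ a b, polar Q (M' a) (M' b) = h (-ε * ν * (a * b)) := by
    intro a b
    rw [hM', hM', polar_add_left, polar_add_right, polar_add_right, hMM, hPP, hPM,
      polar_comm Q (M _) (P _), hPM, add_zero, zero_add, ← map_add]
    congr 1
    rw [← hab']; ring
  have hPM' : ∀ a b, polar Q (P' a) (M' b) = 0 := by
    intro a b
    rw [hP', hM', polar_add_left, polar_add_right, polar_add_right, hMM, hPP, hPM,
      polar_comm Q (M _) (P _), hPM, add_zero, zero_add, ← map_add, ← map_zero h]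
    congr 1; ring
  have hinjM : ∀ (μ : AdjoinRoot g), μ ≠ 0 → ∀ (N : AdjoinRoot g →ₗ[F] V),
      (∀ a b, polar Q (N a) (N b) = h (μ * (a * b))) →
      Function.Injective N ∧ (polarBilin (Q.restrict (LinearMap.range N))).Nondegenerate := by
    intro μ hμ N hN
    have key : ∀ a, (∀ b, polar Q (N a) (N b) = 0) → a = 0 := fun a ha => by
      have := hnd (μ * a) fun b => by rw [mul_assoc, ← hN, ha]
      exact (mul_eq_zero.1 this).resolve_left hμ
    refine ⟨(injective_iff_map_eq_zero N).2 fun a ha => key a fun b => by rw [ha, polar_zero_left], ?_⟩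
    have key' : ∀ x : LinearMap.range N, (∀ y : LinearMap.range N, polar Q (x : V) (y : V) = 0) → x = 0 := by
      rintro ⟨_, a, rfl⟩ hx
      obtain rfl : a = 0 := key a fun b => hx ⟨N b, b, rfl⟩
      exact Subtype.ext (map_zero N)
    exact ⟨fun x hx => key' x hx, fun y hy => key' y fun x => (polar_comm _ _ _).trans (hy x)⟩
  obtain ⟨iM, nM⟩ := hinjM (-ε) (neg_ne_zero.2 hε0) M hMM
  obtain ⟨iM', nM'⟩ := hinjM (-ε * ν) (mul_ne_zero (neg_ne_zero.2 hε0) hν0) M' hMM'
  obtain ⟨s, hsW, hsP, hsd, hss⟩ := exists_involution h2 hE _ nM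
  obtain ⟨s', hsW', hsP', hsd', hss'⟩ := exists_involution h2 hE _ nM'
  refine ⟨s' * s, ?_, ?_, ?_⟩
  · rw [hE.dick_hom, hsd, hsd', LinearMap.finrank_range_of_inj iM, LinearMap.finrank_range_of_inj iM',
      ← pow_add, Even.neg_one_pow ⟨_, rfl⟩]
  · let b := Module.finBasis F (AdjoinRoot g)
    rw [map_mul, hss (b.map (LinearEquiv.ofInjective M iM)), hss' (b.map (LinearEquiv.ofInjective M' iM')),
      LinearMap.finrank_range_of_inj iM, LinearMap.finrank_range_of_inj iM']
    set D := H4.gram (Q.restrict (LinearMap.range M)) (b.map (LinearEquiv.ofInjective M iM))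
    have hD : H4.gram (Q.restrict (LinearMap.range M')) (b.map (LinearEquiv.ofInjective M' iM')) =
        (Algebra.leftMulMatrix b ν).transpose * D := by
      ext i j
      show polar Q (M' (b i)) (M' (b j)) = ∑ l, Algebra.leftMulMatrix b ν l i * polar Q (M (b l)) (M (b j))
      simp only [hMM, hMM', Algebra.leftMulMatrix_eq_repr_mul]
      have e : ∑ l, b.repr (ν * b i) l • b l = ν * b i := b.sum_repr _
      calc h (-ε * ν * (b i * b j)) = h (-ε * ((∑ l, b.repr (ν * b i) l • b l) * b j)) := by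
            rw [e]; congr 1; ring
        _ = _ := by
          simp only [Finset.sum_mul, Finset.mul_sum, smul_mul_assoc, mul_smul_comm, map_sum, map_smul,
            smul_eq_mul]
    rw [hD, Matrix.det_mul, Matrix.det_transpose, ← Algebra.norm_eq_matrix_det, hν]
    have hD0 : (2 : F) ^ finrank F (AdjoinRoot g) * D.det ≠ 0 :=
      mul_ne_zero (pow_ne_zero _ h2) (H4.det_gram_ne_zero nM _)
    have hc00 : c ≠ 0 := fun h0 => hc0 (h0 ▸ IsSquare.zero)
    rw [show (2 : F) ^ finrank F (AdjoinRoot g) * (c * D.det) =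
      c * ((2 : F) ^ finrank F (AdjoinRoot g) * D.det) by ring, H5.sqc_mul hc00 hD0, mul_assoc,
      Int.units_mul_self, mul_one, H5.sqc_eq_neg_one_iff.2 hc0]
  · -- commutation, on the plane and on its perpendicular space
    set U := LinearMap.range P ⊔ LinearMap.range M
    have hUmem : ∀ x ∈ U, ∃ a b, x = P a + M b := by
      intro x hx
      obtain ⟨_, ⟨a, rfl⟩, _, ⟨b, rfl⟩, rfl⟩ := Submodule.mem_sup.1 hx
      exact ⟨a, b, rfl⟩
    have hUU : U ⊓ perp Q U = ⊥ := by
      rw [eq_bot_iff]
      rintro x ⟨hx, hx'⟩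
      obtain ⟨a, b, rfl⟩ := hUmem x hx
      rw [SetLike.mem_coe, mem_perp] at hx'
      have ha : a = 0 := hnd a fun c' => by
        have := hx' (P c') (Submodule.mem_sup_left ⟨c', rfl⟩)
        rwa [polar_comm, polar_add_left, hPP, polar_comm Q (M b), hPM, add_zero] at this
      have hb : -ε * b = 0 := hnd _ fun c' => by
        have := hx' (M c') (Submodule.mem_sup_right ⟨c', rfl⟩)
        rwa [polar_comm, polar_add_left, hMM, hPM, zero_add, ← mul_assoc] at this
      rw [Submodule.mem_bot, ha, (mul_eq_zero.1 hb).resolve_left (neg_ne_zero.2 hε0), map_zero, map_zero,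
        add_zero]
    have hcompl : IsCompl U (perp Q U) := by
      refine (Submodule.isCompl_iff_disjoint _ _ ?_).2 (disjoint_iff.2 hUU)
      have := H5.finrank_perp_add hE.nondeg U; omega
    have hkP : ∀ a, (k : V ≃ₗ[F] V) (P a) = (2 : F)⁻¹ • (P (AdjoinRoot.root g * a) + M a) ∧
        (k : V ≃ₗ[F] V).symm (P a) = (2 : F)⁻¹ • (P (AdjoinRoot.root g * a) - M a) := fun a => by
      rw [(k_eq k h2 _).1, (k_eq k h2 _).2, (hsym a).1]; exact ⟨rfl, rfl⟩
    have hkM : ∀ a, (k : V ≃ₗ[F] V) (M a) = (2 : F)⁻¹ • (M (AdjoinRoot.root g * a) + P (ε * a)) ∧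
        (k : V ≃ₗ[F] V).symm (M a) = (2 : F)⁻¹ • (M (AdjoinRoot.root g * a) - P (ε * a)) := fun a => by
      rw [(k_eq k h2 _).1, (k_eq k h2 _).2, (hsym a).2, hskew2]; exact ⟨rfl, rfl⟩
    have hkU : ∀ x ∈ U, (k : V ≃ₗ[F] V) x ∈ U := by
      intro x hx
      obtain ⟨a, b, rfl⟩ := hUmem x hx
      rw [map_add, (hkP a).1, (hkM b).1]
      exact U.add_mem (U.smul_mem _ (U.add_mem (Submodule.mem_sup_left ⟨_, rfl⟩) (Submodule.mem_sup_right ⟨_, rfl⟩)))
        (U.smul_mem _ (U.add_mem (Submodule.mem_sup_right ⟨_, rfl⟩) (Submodule.mem_sup_left ⟨_, rfl⟩)))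
    have hksU : ∀ x ∈ U, (k : V ≃ₗ[F] V).symm x ∈ U := by
      intro x hx
      obtain ⟨a, b, rfl⟩ := hUmem x hx
      rw [map_add, (hkP a).2, (hkM b).2]
      exact U.add_mem (U.smul_mem _ (U.sub_mem (Submodule.mem_sup_left ⟨_, rfl⟩) (Submodule.mem_sup_right ⟨_, rfl⟩)))
        (U.smul_mem _ (U.sub_mem (Submodule.mem_sup_right ⟨_, rfl⟩) (Submodule.mem_sup_left ⟨_, rfl⟩)))
    have hfix : ∀ x ∈ perp Q U, (s : V ≃ₗ[F] V) x = x ∧ (s' : V ≃ₗ[F] V) x = x := by
      intro x hx
      rw [mem_perp] at hx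
      refine ⟨hsP x ?_, hsP' x ?_⟩
      · rintro _ ⟨a, rfl⟩; exact hx _ (Submodule.mem_sup_right ⟨a, rfl⟩)
      · rintro _ ⟨a, rfl⟩
        rw [hM']; exact hx _ (U.add_mem (Submodule.mem_sup_right ⟨_, rfl⟩) (Submodule.mem_sup_left ⟨_, rfl⟩))
    have hsval : ∀ a, (s : V ≃ₗ[F] V) (P a) = P a ∧ (s : V ≃ₗ[F] V) (M a) = -M a := fun a =>
      ⟨hsP _ (by rintro _ ⟨b, rfl⟩; rw [polar_comm]; exact hPM a b), hsW _ ⟨a, rfl⟩⟩
    have hs'val : ∀ a, (s' : V ≃ₗ[F] V) (P' a) = P' a ∧ (s' : V ≃ₗ[F] V) (M' a) = -M' a := fun a =>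
      ⟨hsP' _ (by rintro _ ⟨b, rfl⟩; rw [polar_comm]; exact hPM' a b), hsW' _ ⟨a, rfl⟩⟩
    have hinv : ∀ x ∈ U, (s : V ≃ₗ[F] V) ((k : V ≃ₗ[F] V) x) = (k : V ≃ₗ[F] V).symm ((s : V ≃ₗ[F] V) x) ∧
        (s : V ≃ₗ[F] V) x ∈ U := by
      intro x hx
      obtain ⟨a, b, rfl⟩ := hUmem x hx
      refine ⟨?_, ?_⟩
      · simp only [map_add, map_neg, map_smul, (hkP a).1, (hkP a).2, (hkM b).1, (hkM b).2, (hsval _).1,
          (hsval _).2]
        module
      · rw [map_add, (hsval a).1, (hsval b).2]
        exact U.add_mem (Submodule.mem_sup_left ⟨_, rfl⟩) (U.neg_mem (Submodule.mem_sup_right ⟨_, rfl⟩))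
    have hspan : ∀ x ∈ U, ∃ a b, x = P' a + M' b := by
      intro x hx
      obtain ⟨a, b, rfl⟩ := hUmem x hx
      refine ⟨(a * a₀ - ε * (b * b₀)) / ν, (b * a₀ - a * b₀) / ν, ?_⟩
      rw [hP', hM']
      have e1 : (a * a₀ - ε * (b * b₀)) / ν * a₀ + ε * ((b * a₀ - a * b₀) / ν * b₀) = a := by
        field_simp; linear_combination a * hab'
      have e2 : (a * a₀ - ε * (b * b₀)) / ν * b₀ + (b * a₀ - a * b₀) / ν * a₀ = b := by
        field_simp; linear_combination b * hab'
      have e3 : ∀ A₁ A₂ B₁ B₂, P (A₁ + A₂) + M (B₁ + B₂) = P A₁ + M B₁ + (M B₂ + P A₂) := fun A₁ A₂ B₁ B₂ => by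
        simp only [map_add]; abel
      have e4 := e3 ((a * a₀ - ε * (b * b₀)) / ν * a₀) (ε * ((b * a₀ - a * b₀) / ν * b₀))
        ((a * a₀ - ε * (b * b₀)) / ν * b₀) ((b * a₀ - a * b₀) / ν * a₀)
      rw [e1, e2] at e4
      exact e4
    have hkP' : ∀ a, (k : V ≃ₗ[F] V) (P' a) = (2 : F)⁻¹ • (P' (AdjoinRoot.root g * a) + M' a) ∧
        (k : V ≃ₗ[F] V).symm (P' a) = (2 : F)⁻¹ • (P' (AdjoinRoot.root g * a) - M' a) := fun a => by
      have e : symPart k (P' a) = P' (AdjoinRoot.root g * a) := by
        rw [hP', hP', map_add, (hsym _).1, (hsym _).2, mul_assoc, mul_assoc]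
      rw [(k_eq k h2 _).1, (k_eq k h2 _).2, e]; exact ⟨rfl, rfl⟩
    have hkM' : ∀ a, (k : V ≃ₗ[F] V) (M' a) = (2 : F)⁻¹ • (M' (AdjoinRoot.root g * a) + P' (ε * a)) ∧
        (k : V ≃ₗ[F] V).symm (M' a) = (2 : F)⁻¹ • (M' (AdjoinRoot.root g * a) - P' (ε * a)) := fun a => by
      have e : symPart k (M' a) = M' (AdjoinRoot.root g * a) := by
        rw [hM', hM', map_add, (hsym _).1, (hsym _).2, mul_assoc,
          show AdjoinRoot.root g * (ε * (a * b₀)) = ε * (AdjoinRoot.root g * a * b₀) by ring]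
      have e' : skewPart k (M' a) = P' (ε * a) := by
        rw [hM', hP', map_add, hskew2]
        show P (ε * (a * a₀)) + M (ε * (a * b₀)) = _
        rw [mul_assoc, mul_assoc]
      rw [(k_eq k h2 _).1, (k_eq k h2 _).2, e, e']; exact ⟨rfl, rfl⟩
    have hinv' : ∀ x ∈ U, (s' : V ≃ₗ[F] V) ((k : V ≃ₗ[F] V).symm x) = (k : V ≃ₗ[F] V) ((s' : V ≃ₗ[F] V) x) := by
      intro x hx
      obtain ⟨a, b, rfl⟩ := hspan x hx
      simp only [map_add, map_sub, map_neg, map_smul, (hkP' a).1, (hkP' a).2, (hkM' b).1, (hkM' b).2,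
        (hs'val _).1, (hs'val _).2]
      module
    intro x
    obtain ⟨u, w, hu, hw, rfl⟩ := Submodule.codisjoint_iff_exists_add_eq.1 hcompl.codisjoint x
    have hkw : (k : V ≃ₗ[F] V) w ∈ perp Q U := mem_perp.2 fun y hy => by
      rw [← (k : V ≃ₗ[F] V).apply_symm_apply y, H5.orth_polar]
      exact mem_perp.1 hw _ (hksU y hy)
    simp only [map_add, orth_mul_apply]
    rw [(hfix _ hkw).1, (hfix _ hkw).2, (hfix _ hw).1, (hfix _ hw).2, (hinv u hu).1,
      hinv' _ (hinv u hu).2]

end Cfsg.Agent.H62.SemiComm
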