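import Cfsg.Agent.H62.ConformalPlusMinus
import Cfsg.Agent.H62.SemisimpleComm

/-!
Fusion of the automorphisms of odd prime order prime to the characteristic induced by similarities
of an even-dimensional orthogonal group in odd characteristic.
-/

set_option autoImplicit false
set_option maxHeartbeats 400000
set_option linter.unusedSectionVars false

namespace Cfsg.Agent.H62.SemiComm

open QuadraticMap hiding sq
open Module
open scoped Matrix
open Cfsg.Agent.H4 hiding perp mem_perp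
open Cfsg.Agent.H62.Conformal
open Cfsg.Agent.H5 (orth refl refl_apply dick spin sqc orth_map orth_ext orth_mul_apply)

section linear

variable {F V : Type*} [Field F] [Finite F] [AddCommGroup V] [Module F V] [FiniteDimensional F V]
  [Finite V] {Q : QuadraticForm F V} {n : ℕ}

/-- A similarity of a symplectic space has determinant a power of its multiplier. -/
theorem det_alt_sim {W : Type*} [AddCommGroup W] [Module F W] [FiniteDimensional F W]
    (B : LinearMap.BilinForm F W) (hB : B.Nondegenerate) (hA : B.IsAlt) (g : W ≃ₗ[F] W) {c : F}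
    (hc : c ≠ 0) (hg : ∀ x y, B (g x) (g y) = c * B x y) :
    ∃ m, finrank F W = 2 * m ∧ LinearMap.det (g : W →ₗ[F] W) = c ^ m := by
  classical
  obtain ⟨m, e, hm, he⟩ := H2.exists_equiv_std B hB hA
  refine ⟨m, hm, ?_⟩
  let D : (Fin m ⊕ Fin m → F) →ₗ[F] (Fin m ⊕ Fin m → F) :=
    Matrix.toLin' (Matrix.fromBlocks (c⁻¹ • (1 : Matrix (Fin m) (Fin m) F)) 0 0 1)
  let g' : (Fin m ⊕ Fin m → F) →ₗ[F] (Fin m ⊕ Fin m → F) :=
    (e : W →ₗ[F] _) ∘ₗ (g : W →ₗ[F] W) ∘ₗ (e.symm : _ →ₗ[F] W)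
  have hg' : ∀ x y, Cfsg.sympForm m F (g' x) (g' y) = c * Cfsg.sympForm m F x y := by
    intro x y
    show Cfsg.sympForm m F (e (g (e.symm x))) (e (g (e.symm y))) = _
    rw [he, hg, ← he, e.apply_symm_apply, e.apply_symm_apply]
  have hD : ∀ x y, Cfsg.sympForm m F (D x) (D y) = c⁻¹ * Cfsg.sympForm m F x y := by
    intro x y
    simp [D, Matrix.toLin'_apply, Matrix.fromBlocks_mulVec, H2.sympForm_apply, Matrix.smul_mulVec]
    rw [mul_sub, Finset.mul_sum, Finset.mul_sum]
    congr 1 <;> exact Finset.sum_congr rfl fun i _ => by ring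
  have hmem : LinearMap.toMatrix' (g' ∘ₗ D) ∈ Matrix.symplecticGroup (Fin m) F := by
    rw [H2.mem_symplecticGroup_iff]
    intro x y
    rw [LinearMap.toMatrix'_mulVec, LinearMap.toMatrix'_mulVec]
    show Cfsg.sympForm m F (g' (D x)) (g' (D y)) = _
    rw [hg', hD, ← mul_assoc, mul_inv_cancel₀ hc, one_mul]
  have h1 := SymplecticGroup.det_eq_one hmem
  rw [LinearMap.det_toMatrix', LinearMap.det_comp] at h1
  simp only [g', D, LinearMap.det_conj, LinearMap.det_toLin', Matrix.det_fromBlocks_zero₂₁,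
    Matrix.det_smul, Matrix.det_one, mul_one, Fintype.card_fin, inv_pow] at h1
  exact (mul_inv_eq_one₀ (pow_ne_zero _ hc)).1 h1

/-- **A proper similarity of every multiplier commuting with `k`.** -/
theorem exists_sim_comm (h2 : (2 : F) ≠ 0) (hE : EvenForm Q n) (k : orth Q) {r : ℕ} (hodd : Odd r)
    (hr : (r : F) ≠ 0) (hk : (k : V ≃ₗ[F] V) ^ r = 1) {c : F} (hc : c ≠ 0) :
    ∃ d : V ≃ₗ[F] V, (∀ v, Q (d v) = c * Q v) ∧ (∀ v, d ((k : V ≃ₗ[F] V) v) = (k : V ≃ₗ[F] V) (d v)) ∧
      LinearMap.det (d : V →ₗ[F] V) = c ^ n := by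
  classical
  haveI := Fintype.ofFinite F
  set A : V ≃ₗ[F] V := (k : V ≃ₗ[F] V) with hA
  set B : LinearMap.BilinForm F V := polarBilin Q with hB
  set Kx := LinearMap.ker ((A ^ 1).toLinearMap - 1) with hKx
  set Rx := LinearMap.range ((A ^ 1).toLinearMap - 1) with hRx
  have hcl := H67.split_pow_sub_one (j := 1) hr hk
  have hBk : ∀ x z, B (A x) (A z) = B x z := fun x z => H5.orth_polar k x z
  have hor : ∀ u ∈ Rx, ∀ w ∈ Kx, B u w = 0 ∧ B w u = 0 := fun u hu w hw =>
    H67.moved_orth_fixed B (A ^ 1) (by simpa using hBk) hu hw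
  have hRn : (B.restrict Rx).Nondegenerate := H67.restrict_nondeg B hE.nondeg Rx Kx hcl hor
  have hKn : (polarBilin (Q.restrict Kx)).Nondegenerate :=
    H67.restrict_nondeg B hE.nondeg Kx Rx hcl.symm fun u hu w hw => (hor w hw u hu).symm
  have hRk : ∀ u ∈ Rx, A u ∈ Rx := by
    rintro _ ⟨w, rfl⟩; exact ⟨A w, by simp [map_sub]⟩
  have hKA : ∀ u ∈ Kx, A u = u := fun u hu => by simpa [hKx, sub_eq_zero] using hu
  have hinj : ∀ u ∈ Rx, A (A u) = u → u = 0 := by
    intro u hu h
    refine Submodule.disjoint_def.1 hcl.disjoint u hu ?_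
    obtain ⟨j, rfl⟩ := hodd
    have h3 : ∀ i, ((A ^ 2) ^ i) u = u := fun i => by
      induction i with
      | zero => simp
      | succ i ih => rw [pow_succ, LinearEquiv.mul_apply, pow_two, LinearEquiv.mul_apply, h, ← pow_two, ih]
    have h4 : A u = u := by
      have := LinearEquiv.congr_fun hk u
      rwa [pow_succ', pow_mul, LinearEquiv.mul_apply, h3] at this
    simp [h4]
  let T₀ : Rx →ₗ[F] Rx := LinearMap.codRestrict Rx (A.toLinearMap ∘ₗ Rx.subtype) fun u => hRk u u.2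
  let T : Rx ≃ₗ[F] Rx := LinearEquiv.ofInjectiveEndo T₀ fun a b h =>
    Subtype.ext (A.injective (congrArg Subtype.val h))
  have hT : ∀ u : Rx, (T u : V) = A u := fun u => rfl
  -- the alternating form on the moved space
  let C : LinearMap.BilinForm F Rx :=
    (B.restrict Rx).compl₁₂ (T.toLinearMap - T.symm.toLinearMap) LinearMap.id
  have hC : ∀ x y : Rx, C x y = polar Q ((T x : V) - (T.symm x : V)) (y : V) := fun x y => rfl
  have hTadj : ∀ x y : Rx, polar Q (T.symm x : V) (y : V) = polar Q (x : V) (A y) := fun x y => by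
    conv_rhs => rw [← T.apply_symm_apply x, hT]
    exact (hBk _ _).symm
  have hCalt : C.IsAlt := fun x => by
    rw [hC, polar_sub_left, hTadj, hT, polar_comm Q (x : V) (A x), sub_self]
  have hCn : C.Nondegenerate := by
    have key : ∀ x, (∀ y, C x y = 0) → x = 0 := by
      intro x hx
      have h1 : T x - T.symm x = 0 := hRn.1 _ hx
      have h2' : A (A x) = x := by
        have := congrArg T (sub_eq_zero.1 h1)
        rw [T.apply_symm_apply] at this
        exact congrArg Subtype.val this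
      exact Subtype.ext (hinj x x.2 h2')
    refine ⟨key, fun y hy => key y fun x => ?_⟩
    rw [← hCalt.neg_eq x y, hy x, neg_zero]
  obtain ⟨mR, hmR, -⟩ := det_alt_sim C hCn hCalt (LinearEquiv.refl F Rx) one_ne_zero fun x y => (one_mul _).symm
  -- a similarity on the moved space
  obtain ⟨y, hyT, hyB⟩ := H67.exists_commute_transport (B.restrict Rx) (c • B.restrict Rx) hRn
    (by
      refine ⟨fun x hx => hRn.1 x fun z => (mul_eq_zero.1 (hx z)).resolve_left hc,
        fun z hz => hRn.2 z fun x => (mul_eq_zero.1 (hz x)).resolve_left hc⟩)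
    1 (one_mul 1) (fun x z => by rw [one_mul]; exact polar_comm _ _ _)
    (fun x z => by
      rw [one_mul]
      show c * polar Q (x : V) z = c * polar Q (z : V) x
      rw [polar_comm])
    T (fun x z => hBk x z) (fun x z => by
      show c * B (A x) (A z) = c * B x z
      rw [hBk])
    (fun u h => Subtype.ext (hinj u u.2 (congrArg Subtype.val h)))
  have hyQ : ∀ x : Rx, Q (y x : V) = c * Q (x : V) := fun x => by
    have h := hyB x x
    change c * polar Q (x : V) x = polar Q (y x : V) (y x) at h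
    rw [H5.polar_self', H5.polar_self'] at h
    exact mul_left_cancel₀ h2 (by linear_combination -h)
  -- a similarity on the fixed space
  have hKdim : finrank F Rx + finrank F Kx = finrank F V := Submodule.finrank_add_eq_of_isCompl hcl
  obtain ⟨t, ht⟩ := isom_of_disc (Q := c • Q.restrict Kx) (Q' := Q.restrict Kx) h2
    (nondegenerate_smul hc hKn) hKn rfl (Module.finBasis F Kx) (Module.finBasis F Kx) (by
      obtain ⟨j, hj⟩ : ∃ j, finrank F Kx = 2 * j := ⟨n - mR, by rw [hE.rank, hmR] at hKdim; omega⟩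
      rw [det_gram_smul, Fintype.card_fin]
      refine ⟨c ^ j * (H4.gram (Q.restrict Kx) (Module.finBasis F Kx)).det, ?_⟩
      rw [show c ^ finrank F Kx = c ^ j * c ^ j by rw [hj, two_mul, pow_add]]
      ring)
  let e := Submodule.prodEquivOfIsCompl Rx Kx hcl
  let d₀ : V ≃ₗ[F] V := e.symm.trans ((y.prodCongr t).trans e)
  have hd₀ : ∀ (u : Rx) (w : Kx), d₀ ((u : V) + w) = (y u : V) + t w := fun u w => by
    show e ((y.prodCongr t) (e.symm ((u : V) + w))) = _
    rw [show (u : V) + w = e (u, w) from rfl, e.symm_apply_apply]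
    rfl
  have hdec : ∀ v, ∃ (u : Rx) (w : Kx), v = (u : V) + w := fun v => by
    obtain ⟨a, b, ha, hb, h⟩ := Submodule.codisjoint_iff_exists_add_eq.1 hcl.codisjoint v
    exact ⟨⟨a, ha⟩, ⟨b, hb⟩, h.symm⟩
  have hQd : ∀ v, Q (d₀ v) = c * Q v := fun v => by
    obtain ⟨u, w, rfl⟩ := hdec v
    have h0 : ∀ (u : Rx) (w : Kx), polar Q (u : V) (w : V) = 0 := fun u w => (hor u u.2 w w.2).1
    rw [hd₀, QuadraticMap.map_add Q, QuadraticMap.map_add Q, h0, h0, add_zero, add_zero, hyQ,
      show Q (t w : V) = c * Q (w : V) from ht w]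
    ring
  have hcomm : ∀ v, d₀ (A v) = A (d₀ v) := fun v => by
    obtain ⟨u, w, rfl⟩ := hdec v
    rw [map_add, hKA w w.2, show A (u : V) = ((T u : Rx) : V) from rfl, hd₀, hd₀, map_add, hKA _ (t w).2,
      hyT, hT]
  have hsq := det_sq_of_similar hE.nondeg d₀ hQd
  rw [hE.rank, mul_comm 2 n, pow_mul] at hsq
  rcases sq_eq_sq_iff_eq_or_eq_neg.1 hsq with hdet | hdet
  · exact ⟨d₀, hQd, hcomm, hdet⟩
  by_cases hK : ∃ w ∈ Kx, Q w ≠ 0
  · obtain ⟨w, hw, hQw⟩ := hK
    refine ⟨d₀.trans (refl Q w : V ≃ₗ[F] V), fun v => ?_, fun v => ?_, ?_⟩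
    · rw [LinearEquiv.trans_apply, orth_map, hQd]
    · show (refl Q w : V ≃ₗ[F] V) (d₀ (A v)) = A ((refl Q w : V ≃ₗ[F] V) (d₀ v))
      rw [hcomm, refl_apply, refl_apply, map_sub,
        map_smul, hKA w hw]
      congr 3
      conv_lhs => rw [← hKA w hw]
      exact hBk _ _
    · rw [LinearEquiv.coe_trans, LinearMap.det_comp, hE.det_orth, H5.dick_refl hE.nondeg hQw, hdet]
      simp
  · push Not at hK
    refine ⟨d₀, hQd, hcomm, ?_⟩
    have hK0 : Kx = ⊥ := (Submodule.eq_bot_iff _).2 fun x hx => by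
      have h0 : (⟨x, hx⟩ : Kx) = 0 := hKn.1 _ fun z => by
        show polar (Q.restrict Kx) _ _ = 0
        simp only [QuadraticMap.polar, QuadraticMap.restrict_apply]
        rw [hK _ (Submodule.coe_mem _), hK _ hx, hK _ z.2]; ring
      exact congrArg Subtype.val h0
    -- fixed point free: the similarity preserves an alternating form
    let C' : LinearMap.BilinForm F V := B.compl₁₂ (A.toLinearMap - A.symm.toLinearMap) LinearMap.id
    have hC' : ∀ x z, C' x z = polar Q (A x - A.symm x) z := fun x z => rfl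
    have hA' : ∀ x z, polar Q (A.symm x) z = polar Q x (A z) := fun x z => polar_ksymm_left k x z
    have hC'a : C'.IsAlt := fun x => by
      rw [hC', polar_sub_left, hA', polar_comm Q x (A x), sub_self]
    have hC'n : C'.Nondegenerate := by
      have key : ∀ x, (∀ z, C' x z = 0) → x = 0 := by
        intro x hx
        have h1 : A x - A.symm x = 0 := hE.nondeg.1 _ hx
        have hxR : x ∈ Rx := by
          have : Rx = ⊤ := by
            have h : Rx ⊔ Kx = ⊤ := hcl.sup_eq_top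
            rwa [hK0, sup_bot_eq] at h
          rw [this]; trivial
        refine hinj x hxR ?_
        rw [sub_eq_zero.1 h1, A.apply_symm_apply]
      refine ⟨key, fun z hz => key z fun x => ?_⟩
      rw [← hC'a.neg_eq x z, hz x, neg_zero]
    obtain ⟨m, hm, hdm⟩ := det_alt_sim C' hC'n hC'a d₀ hc fun x z => by
      have hs : A.symm (d₀ x) = d₀ (A.symm x) := by
        apply A.injective; rw [A.apply_symm_apply, ← hcomm, A.apply_symm_apply]
      rw [hC', hC', ← hcomm, hs, ← map_sub]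
      have hpol : ∀ a b, polar Q (d₀ a) (d₀ b) = c * polar Q a b := fun a b => by
        simp only [QuadraticMap.polar, ← map_add, hQd]; ring
      exact hpol _ _
    rw [hdm, show m = n by rw [hE.rank] at hm; omega]

end linear

section carrier

variable {F : Type*} [Field F] [Fintype F] {ι : Type} [Fintype ι] [DecidableEq ι]
  {R : QuadraticForm F (ι → F)} {f : (ι → F) → F} {n : ℕ} (hf : ⇑R = f) (hE : EvenForm R n)
  (h2 : (2 : F) ≠ 0)

theorem conjUnder_iff {X : Type*} [Group X] {H K : Subgroup X} (hle : H ≤ K) {x : X}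
    (hcov : ∀ g ∈ K, ∃ h ∈ H, ∃ c : X, c * x = x * c ∧ g = h * c) (y : X) :
    Cfsg.IsConjUnder H x y ↔ Cfsg.IsConjUnder K x y := by
  refine ⟨fun ⟨h, hh, e⟩ => ⟨h, hle hh, e⟩, ?_⟩
  rintro ⟨g, hg, rfl⟩
  obtain ⟨h, hh, c, hc, rfl⟩ := hcov g hg
  refine ⟨h, hh, ?_⟩
  rw [_root_.mul_inv_rev, show h * c * x * (c⁻¹ * h⁻¹) = h * (c * x) * c⁻¹ * h⁻¹ by group, hc]
  group

include hf hE h2 in
/-- The isometry image lies between the special image and the conformal one. -/
theorem poAut_facts :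
    Cfsg.poAut F f ≤ Cfsg.pgoAut F f ∧ ∀ k : orth R, indHom R hf (orthToSim R k) ∈ Cfsg.poAut F f := by
  haveI : Finite (ι → F) := Pi.finite
  refine ⟨Subgroup.closure_mono ?_, fun k => Subgroup.subset_closure ?_⟩
  · rintro β ⟨M, hM, hβ⟩
    exact ⟨M, ⟨1, fun v => by rw [Units.val_one, one_mul]; exact hM v v⟩, hβ⟩
  · set M := semiMatrix (simEquiv (orthToSim R k)) (RingEquiv.refl F) (orthToSim_mem R k)
    have hMv : ∀ v, (M : Matrix _ _ F) *ᵥ v = (k : (ι → F) ≃ₗ[F] (ι → F)) v := fun v =>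
      semiMatrix_mulVec (simEquiv (orthToSim R k)) (RingEquiv.refl F) (orthToSim_mem R k) v
    refine ⟨M, fun v _ => ?_, (induced_iff R hf _ M _ hMv _).2 rfl⟩
    change f ((M : Matrix ι ι F) *ᵥ v) = f v
    rw [hMv, ← hf, orth_map]

include hf hE h2 in
/-- An automorphism of odd prime order induced by a similarity comes from an isometry of that order. -/
theorem exists_lift (hmult : ∀ c : F, c ≠ 0 → c ∈ similMults R) {x : MulAut (Cfsg.POmega F f)}
    (hx : x ∈ Cfsg.pgoAut F f) {r : ℕ} (hro : Odd r) (hr1 : r ≠ 1) (hxr : orderOf x = r) :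
    ∃ k : orth R, (k : (ι → F) ≃ₗ[F] (ι → F)) ^ r = 1 ∧ k ≠ 1 ∧
      x = indHom R hf (orthToSim R k) := by
  haveI : Finite (ι → F) := Pi.finite
  haveI := hE.nontrivial
  obtain ⟨⟨φ, -, hker⟩, -⟩ := pgo_mod_pso hf hE h2 hmult
  have h2pso : x ^ 2 ∈ Cfsg.psoAut F f := by
    have h1 : (⟨x, hx⟩ : Cfsg.pgoAut F f) ^ 2 ∈ φ.ker := by
      rw [MonoidHom.mem_ker, map_pow]
      generalize φ ⟨x, hx⟩ = a
      revert a
      decide
    rw [hker, Subgroup.mem_subgroupOf] at h1
    exact h1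
  have h4 : (x ^ 2) ^ 2 ∈ Cfsg.Inn (Cfsg.POmega F f) := by
    rw [psoAut_eq hf hE h2] at h2pso
    obtain ⟨g, hg, hgx⟩ := h2pso
    obtain ⟨k, rfl⟩ := hg.2
    have hkd := (orth_mem_specialSim_iff hE k).1 hg
    rw [← hgx, ← map_pow, ← map_pow, orth_mem_inn_iff hf hE _ (by rw [pow_two, hE.dick_hom, hkd, one_mul])]
    exact Or.inl (by rw [map_pow]; exact Int.units_sq _)
  have hxi : x ∈ Cfsg.Inn (Cfsg.POmega F f) := by
    obtain ⟨j, hj⟩ := hro
    have e : x = ((x ^ 2) ^ 2) ^ ((j + 1) * (j + 1)) := by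
      rw [← pow_mul, ← pow_mul, show 2 * (2 * ((j + 1) * (j + 1))) = r * (2 * j + 3) + 1 by rw [hj]; ring,
        pow_succ, pow_mul, ← hxr, pow_orderOf_eq_one, one_pow, one_mul]
    rw [e]
    exact pow_mem h4 _
  rw [inn_eq hf] at hxi
  obtain ⟨_, ⟨u, hu, rfl⟩, hux⟩ := hxi
  have hur : indHom R hf (orthToSim R (u ^ r)) = 1 := by
    rw [map_pow, map_pow, hux, ← hxr, pow_orderOf_eq_one]
  obtain ⟨d, hd⟩ := (indHom_eq_one_iff' hf hE _).1 hur
  have hdd : d * d = 1 := by
    obtain ⟨v, hv⟩ := hE.exists_ne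
    have h1 := orth_map (u ^ r) v
    rw [← orthToSim_apply, hd, qf_smul] at h1
    have : (d * d - 1) * R v = 0 := by linear_combination h1
    exact sub_eq_zero.1 ((mul_eq_zero.1 this).resolve_right hv)
  have hu2 : (u ^ r) ^ 2 = 1 := orth_ext fun v => by
    rw [pow_two, orth_mul_apply, ← orthToSim_apply, hd, ← orthToSim_apply, hd, smul_smul, hdd, one_smul]
    rfl
  refine ⟨u ^ (r + 1), ?_, fun h => hr1 ?_, ?_⟩
  · obtain ⟨j, hj⟩ := hro
    rw [← SubmonoidClass.coe_pow, ← pow_mul, show (r + 1) * r = r * 2 * (j + 1) by rw [hj]; ring, pow_mul,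
      pow_mul, hu2, one_pow]
    rfl
  · have : x ^ (r + 1) = 1 := by
      rw [← hux, ← map_pow, ← map_pow, h, map_one, map_one]
    rw [pow_succ, ← hxr, pow_orderOf_eq_one, one_mul] at this
    rw [← hxr, this, orderOf_one]
  · rw [map_pow, map_pow, hux, pow_succ, ← hxr, pow_orderOf_eq_one, one_mul]

include hf hE h2 in
/-- **Class fusion.** -/
theorem fusion (hmult : ∀ c : F, c ≠ 0 → c ∈ similMults R) {x : MulAut (Cfsg.POmega F f)}
    (hx : x ∈ Cfsg.pgoAut F f) {r : ℕ} (hro : Odd r) (hr1 : r ≠ 1) (hrF : (r : F) ≠ 0)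
    (hxr : orderOf x = r) :
    (∀ y, (Cfsg.IsConjUnder (Cfsg.Inn (Cfsg.POmega F f)) x y ↔ Cfsg.IsConjUnder (properImage hf hE) x y) ∧
      (Cfsg.IsConjUnder (Cfsg.psoAut F f) x y ↔ Cfsg.IsConjUnder (properImage hf hE) x y)) ∧
    ∀ y, Cfsg.IsConjUnder (Cfsg.poAut F f) x y ↔ Cfsg.IsConjUnder (Cfsg.pgoAut F f) x y := by
  haveI : Finite (ι → F) := Pi.finite
  haveI := hE.nontrivial
  obtain ⟨k, hkr, hkne, hxk⟩ := exists_lift hf hE h2 hmult hx hro hr1 hxr
  have hcx : ∀ g : linSim R, (∀ v, (g.1 : Equiv.Perm (ι → F)) ((k : (ι → F) ≃ₗ[F] (ι → F)) v) =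
      (k : (ι → F) ≃ₗ[F] (ι → F)) ((g.1 : Equiv.Perm (ι → F)) v)) →
      indHom R hf g.1 * x = x * indHom R hf g.1 := fun g hg => by
    rw [hxk, ← map_mul, ← map_mul]
    refine congrArg _ (Subtype.ext (Equiv.ext fun v => ?_))
    simp only [Subgroup.coe_mul, Equiv.Perm.mul_apply, orthToSim_apply, hg]
  -- splitting off a centralising similarity of the same multiplier
  have hsplit : ∀ g : linSim R, ∃ (k₀ : orth R) (c : MulAut (Cfsg.POmega F f)), c * x = x * c ∧
      indHom R hf g.1 = indHom R hf (orthToSim R k₀) * c ∧ (IsProper n g → dick k₀ = 1) := by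
    intro g
    have hμ0 := (isSemiSim g.1).ne_zero
    obtain ⟨δ, hδ, hδk, hδd⟩ := exists_sim_comm h2 hE k hro hrF hkr hμ0
    let d : linSim R := toLinSim δ hμ0 hδ
    have hdm : simMult d.1 = simMult g.1 := simMult_eq hE.exists_ne fun v => by
      rw [simSigma_linear d.2]; exact hδ v
    have hdp : IsProper n d := by
      refine ⟨fun _ => ?_, fun h => absurd h h2⟩
      rw [hdm, ← hδd]
      exact congrArg _ (LinearMap.ext fun v => rfl)
    let k₀ : orth R := ⟨δ.symm.trans (linSimEquiv g), fun v => by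
      rw [LinearEquiv.trans_apply, linSimEquiv_apply, linSim_app, ← hδ, δ.apply_symm_apply]⟩
    have hg : g.1 = orthToSim R k₀ * d.1 := by
      refine Subtype.ext (Equiv.ext fun v => ?_)
      rw [Subgroup.coe_mul, Equiv.Perm.mul_apply, orthToSim_apply]
      show _ = linSimEquiv g (δ.symm (δ v))
      rw [δ.symm_apply_apply, linSimEquiv_apply]
    refine ⟨k₀, indHom R hf d.1, hcx d hδk, by rw [hg, map_mul], fun hp => ?_⟩
    refine (orthToSim_mem_properSim_iff hE k₀).1 ?_
    rw [show orthToSim R k₀ = g.1 * d.1⁻¹ by rw [hg, mul_inv_cancel_right]]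
    exact mul_mem ((mem_properSim hE).2 hp) (inv_mem ((mem_properSim hE).2 hdp))
  obtain ⟨z, hzd, hzs, hzk⟩ := exists_spin_neg k h2 hE hro hrF hkr hkne
  have hzc := hcx ⟨orthToSim R z, orthToSim_mem R z⟩ hzk
  obtain ⟨hpo, hpok⟩ := poAut_facts hf hE h2
  have hpsoG : Cfsg.psoAut F f ≤ properImage hf hE := by
    rw [psoAut_eq hf hE h2, properImage]
    exact Subgroup.map_mono (by rw [specialSim]; exact inf_le_left)
  have hinn : ∀ y, Cfsg.IsConjUnder (Cfsg.Inn (Cfsg.POmega F f)) x y ↔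
      Cfsg.IsConjUnder (Cfsg.psoAut F f) x y := fun y => by
    refine conjUnder_iff (inn_le_psoAut hf hE h2) (fun g hg => ?_) y
    rw [psoAut_eq hf hE h2] at hg
    obtain ⟨_, hg', rfl⟩ := hg
    obtain ⟨l, rfl⟩ := hg'.2
    have hld := (orth_mem_specialSim_iff hE l).1 hg'
    rcases Int.units_eq_one_or (spin R l) with hs | hs
    · exact ⟨_, (orth_mem_inn_iff hf hE l hld).2 (Or.inl hs), 1, by simp, (mul_one _).symm⟩
    · refine ⟨indHom R hf (orthToSim R (l * z⁻¹)), ?_, indHom R hf (orthToSim R z), hzc, ?_⟩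
      · have hd : dick (l * z⁻¹) = 1 := by
          have h1 := hE.dick_hom (l * z⁻¹) z
          rw [inv_mul_cancel_right, hld, hzd, mul_one] at h1
          exact h1.symm
        exact (orth_mem_inn_iff hf hE _ hd).2 (Or.inl (by rw [map_mul, map_inv, hs, hzs]; decide))
      · rw [← map_mul, ← map_mul, inv_mul_cancel_right]
  have hproper : ∀ y, Cfsg.IsConjUnder (Cfsg.psoAut F f) x y ↔
      Cfsg.IsConjUnder (properImage hf hE) x y := fun y => by
    refine conjUnder_iff hpsoG (fun g hg => ?_) y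
    rw [properImage] at hg
    obtain ⟨g, hgp, rfl⟩ := hg
    obtain ⟨k₀, c, hc, hgc, hkd⟩ := hsplit ⟨g, properSim_le hE hgp⟩
    refine ⟨_, ?_, c, hc, hgc⟩
    rw [psoAut_eq hf hE h2]
    exact ⟨_, (orth_mem_specialSim_iff hE k₀).2 (hkd ((mem_properSim hE (g := ⟨g, properSim_le hE hgp⟩)).1 hgp)), rfl⟩
  refine ⟨fun y => ⟨(hinn y).trans (hproper y), hproper y⟩, fun y => conjUnder_iff hpo (fun g hg => ?_) y⟩
  rw [pgoAut_eq hf hE] at hg
  obtain ⟨g, hgl, rfl⟩ := hg
  obtain ⟨k₀, c, hc, hgc, -⟩ := hsplit ⟨g, hgl⟩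
  exact ⟨_, hpok k₀, c, hc, hgc⟩

end carrier

end Cfsg.Agent.H62.SemiComm
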